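import Mathlib
import Cfsg.Agent.CoprimeAction.Hyperplane

/-!
Weights of an elementary abelian group acting without fixed points on an abelian group.
-/

set_option autoImplicit false

open scoped Pointwise

namespace CfsgLib.FpfS3

variable {G : Type*} [Group G] [Finite G] {V : Type*} [CommGroup V] [Finite V]

/-- Fixed points of a subgroup. -/
def Fix (φ : G →* MulAut V) (B : Subgroup G) : Subgroup V where
  carrier := {v | ∀ b ∈ B, φ b v = v}
  one_mem' := fun b _ => map_one (φ b)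
  mul_mem' := fun {u w} hu hw b hb => by rw [map_mul, hu b hb, hw b hb]
  inv_mem' := fun {u} hu b hb => by rw [map_inv, hu b hb]

/-- An abelian subgroup of prime exponent acting coprimely without nontrivial common fixed point. -/
structure Frame (φ : G →* MulAut V) (r : ℕ) (A : Subgroup G) : Prop where
  prime : r.Prime
  exp : ∀ a ∈ A, a ^ r = 1
  comm : ∀ a ∈ A, ∀ b ∈ A, a * b = b * a
  ne_bot : A ≠ ⊥
  fix_eq : Fix φ A = ⊥
  coprime : (Nat.card A).Coprime (Nat.card V)

variable {φ : G →* MulAut V}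

omit [Finite G] [Finite V] in
theorem φ_mul (x y : G) (v : V) : φ (x * y) v = φ x (φ y v) := by rw [map_mul]; rfl

omit [Finite G] [Finite V] in
theorem φ_one (v : V) : φ 1 v = v := by rw [map_one]; rfl

omit [Finite G] [Finite V] in
theorem eq_one_of_forall (hinj : Function.Injective φ) {x : G} (h : ∀ v, φ x v = v) : x = 1 :=
  hinj (by rw [map_one]; exact MulEquiv.ext h)

omit [Finite G] [Finite V] in
theorem inv_fix {x : G} {v : V} (h : φ x v = v) : φ x⁻¹ v = v := by
  conv_lhs => rw [← h, ← φ_mul, inv_mul_cancel, φ_one]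

variable {r : ℕ} {A : Subgroup G}

theorem Frame.span (F : Frame φ r A) {W : Subgroup V}
    (hW : ∀ B ≤ A, B.relIndex A = r → Fix φ B ≤ W) : W = ⊤ := by
  haveI := Fact.mk F.prime
  let inl : V →* SemidirectProduct V G φ := SemidirectProduct.inl
  let inr : G →* SemidirectProduct V G φ := SemidirectProduct.inr
  have hil : Function.Injective inl := SemidirectProduct.inl_injective
  have hir : Function.Injective inr := SemidirectProduct.inr_injective
  haveI : Finite (SemidirectProduct V G φ) := Finite.of_equiv _ SemidirectProduct.equivProd.symm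
  haveI : IsMulCommutative (A.map inr) := ⟨⟨by
    rintro ⟨_, a, ha, rfl⟩ ⟨_, b, hb, rfl⟩
    exact Subtype.ext (by simp only [Subgroup.coe_mul, ← map_mul, F.comm a ha b hb])⟩⟩
  have h := CfsgLib.CoprimeAction.le_of_hyperplane_centralizers_le (p := r) (A := A.map inr)
    (K := inl.range) (W := W.map inl)
    (by rw [Ne, Subgroup.map_eq_bot_iff_of_injective _ hir]; exact F.ne_bot)
    (by rintro _ ⟨a, ha, rfl⟩; rw [← map_pow, F.exp a ha, map_one])
    (le_trans le_top (by
      haveI : (SemidirectProduct.inl : V →* SemidirectProduct V G φ).range.Normal := by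
        rw [SemidirectProduct.range_inl_eq_ker_rightHom]; infer_instance
      rw [Subgroup.normalizer_eq_top_iff.2 this]))
    (by rw [Subgroup.card_map_of_injective hir, ← Nat.card_congr (MonoidHom.ofInjective hil).toEquiv]; exact F.coprime)
    (by
      intro B hB hidx x hx
      obtain ⟨⟨v, rfl⟩, hxc⟩ := Subgroup.mem_inf.1 hx
      refine ⟨v, hW (B.comap inr) (fun b hb => ?_) ?_ fun b hb => ?_, rfl⟩
      · obtain ⟨a, ha, e⟩ := hB (show inr b ∈ B from hb)
        rwa [← hir e]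
      · rw [← hidx, ← Subgroup.relIndex_map_map_of_injective (B.comap inr) A hir,
          Subgroup.map_comap_eq_self (hB.trans (Subgroup.map_le_range _ _))]
      · apply hil
        change SemidirectProduct.inl (φ b v) = _
        rw [SemidirectProduct.inl_aut, map_inv, mul_inv_eq_iff_eq_mul]
        exact Subgroup.mem_centralizer_iff.1 hxc (inr b) hb |>.trans (by rfl))
  rw [eq_top_iff]
  intro v _
  obtain ⟨w, hw, e⟩ := h ⟨v, rfl⟩
  rwa [← hil e]

theorem Frame.hyper (F : Frame φ r A) {B : Subgroup G} (hB : B ≤ A) (hidx : B.relIndex A = r)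
    {x : G} (hx : x ∈ A) (hxB : x ∉ B) {v : V} (hv : v ∈ Fix φ B) (hxv : φ x v = v) : v = 1 := by
  haveI := Fact.mk F.prime
  haveI : IsMulCommutative A := ⟨⟨fun a b => Subtype.ext (F.comm a a.2 b b.2)⟩⟩
  have hle : B ⊔ Subgroup.zpowers x ≤ A := sup_le hB (Subgroup.zpowers_le.2 hx)
  have he : B ⊔ Subgroup.zpowers x = A := by
    have h1 := Subgroup.relIndex_mul_relIndex B (B ⊔ Subgroup.zpowers x) A le_sup_left hle
    rw [CfsgLib.CoprimeAction.relIndex_sup_zpowers hB hx (F.exp x hx) hxB, hidx] at h1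
    exact le_antisymm hle (Subgroup.relIndex_eq_one.1 (Nat.eq_of_mul_eq_mul_left F.prime.pos (h1.trans (mul_one r).symm)))
  have : v ∈ Fix φ A := by
    let S : Subgroup G :=
      { carrier := {y | φ y v = v}
        one_mem' := φ_one v
        mul_mem' := fun {a b} (ha : φ a v = v) (hb : φ b v = v) => by
          show φ (a * b) v = v
          rw [φ_mul, hb, ha]
        inv_mem' := fun {a} (ha : φ a v = v) => inv_fix ha }
    intro a ha
    have hS : B ⊔ Subgroup.zpowers x ≤ S := sup_le hv (Subgroup.zpowers_le.2 hxv)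
    exact hS (he ▸ ha)
  rwa [F.fix_eq, Subgroup.mem_bot] at this

theorem Frame.apply_mem (F : Frame φ r A) {B : Subgroup G} (hB : B ≤ A) {x : G} (hx : x ∈ A) {v : V}
    (hv : v ∈ Fix φ B) : φ x v ∈ Fix φ B := fun b hb => by
  rw [← φ_mul, F.comm b (hB hb) x hx, φ_mul, hv b hb]

theorem Frame.fix_le (F : Frame φ r A) {B : Subgroup G} (hB : B ≤ A) (hidx : B.relIndex A = r)
    {D : Subgroup G} (hD : D ≤ A) (hDB : ¬ D ≤ B) {v : V} (hv : v ∈ Fix φ B) (hv' : v ∈ Fix φ D) : v = 1 := by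
  obtain ⟨x, hxD, hxB⟩ := SetLike.not_le_iff_exists.1 hDB
  exact F.hyper hB hidx (hD hxD) hxB hv (hv' x hxD)

/-- Fixed spaces of distinct hyperplanes are independent. -/
theorem Frame.indep (F : Frame φ r A) {ι : Type*} (B : ι → Subgroup G) (u : ι → V) : ∀ s : Finset ι,
    (∀ i ∈ s, B i ≤ A ∧ (B i).relIndex A = r ∧ u i ∈ Fix φ (B i)) → (∀ i ∈ s, ∀ j ∈ s, B i = B j → i = j) →
    ∏ i ∈ s, u i = 1 → ∀ i ∈ s, u i = 1 := by
  classical
  intro s
  induction s using Finset.strongInduction generalizing u with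
  | _ s ih =>
  intro hs hinj hprod i hi
  by_cases hone : ∀ j ∈ s, j = i
  · rwa [Finset.prod_eq_single i (fun j hj hji => absurd (hone j hj) hji) (fun h => absurd hi h)] at hprod
  push Not at hone
  obtain ⟨j, hj, hji⟩ := hone
  obtain ⟨hBi, hBi', hui⟩ := hs i hi
  obtain ⟨hBj, hBj', huj⟩ := hs j hj
  have hne : ¬ B j ≤ B i := by
    intro hle
    have h1 := Subgroup.relIndex_mul_relIndex (B j) (B i) A hle hBi
    rw [hBi', hBj'] at h1
    have : (B j).relIndex (B i) = 1 := Nat.eq_of_mul_eq_mul_right F.prime.pos (h1.trans (one_mul r).symm)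
    exact hji (hinj j hj i hi (le_antisymm hle (Subgroup.relIndex_eq_one.1 this)))
  obtain ⟨x, hxj, hxi⟩ := SetLike.not_le_iff_exists.1 hne
  have hw : ∏ k ∈ s.erase j, φ x (u k) * (u k)⁻¹ = 1 := by
    have h1 : φ x (u j) * (u j)⁻¹ = 1 := by rw [huj x hxj, mul_inv_cancel]
    have h2 : ∏ k ∈ s, φ x (u k) * (u k)⁻¹ = 1 := by
      rw [Finset.prod_mul_distrib, ← map_prod, Finset.prod_inv_distrib, hprod, map_one, inv_one, mul_one]
    rwa [← Finset.mul_prod_erase s _ hj, h1, one_mul] at h2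
  have h3 := ih (s.erase j) (Finset.erase_ssubset hj) (fun k => φ x (u k) * (u k)⁻¹)
    (fun k hk => by
      obtain ⟨h1, h2, h3⟩ := hs k (Finset.mem_of_mem_erase hk)
      exact ⟨h1, h2, mul_mem (F.apply_mem h1 (hBj hxj) h3) (inv_mem h3)⟩)
    (fun a ha b hb => hinj a (Finset.mem_of_mem_erase ha) b (Finset.mem_of_mem_erase hb)) hw i
    (Finset.mem_erase.2 ⟨Ne.symm hji, hi⟩)
  exact F.hyper hBi hBi' (hBj hxj) hxi hui (mul_inv_eq_one.1 h3)

theorem Frame.indep_three (F : Frame φ r A) {B₀ B₁ B₂ : Subgroup G} {u₀ u₁ u₂ : V}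
    (h0 : B₀ ≤ A ∧ B₀.relIndex A = r ∧ u₀ ∈ Fix φ B₀) (h1 : B₁ ≤ A ∧ B₁.relIndex A = r ∧ u₁ ∈ Fix φ B₁)
    (h2 : B₂ ≤ A ∧ B₂.relIndex A = r ∧ u₂ ∈ Fix φ B₂) (h01 : B₀ ≠ B₁) (h02 : B₀ ≠ B₂) (h12 : B₁ ≠ B₂)
    (hprod : u₀ * u₁ * u₂ = 1) : u₀ = 1 ∧ u₁ = 1 ∧ u₂ = 1 := by
  have h := F.indep ![B₀, B₁, B₂] ![u₀, u₁, u₂] Finset.univ
    (fun i _ => by fin_cases i <;> simp_all)
    (fun i _ j _ e => by fin_cases i <;> fin_cases j <;> simp_all [eq_comm])
    (by simpa [Fin.prod_univ_three] using hprod)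
  exact ⟨h 0 (Finset.mem_univ _), h 1 (Finset.mem_univ _), h 2 (Finset.mem_univ _)⟩

/-- The norm over `A`, twisted by a bijection of `A`, is trivial. -/
theorem Frame.norm [Fintype A] (F : Frame φ r A) (f : A → A) (hf : Function.Bijective f) (u : V) :
    ∏ x : A, φ (f x : G) u = 1 := by
  rw [hf.prod_comp (fun x : A => φ (x : G) u)]
  have : ∏ x : A, φ (x : G) u ∈ Fix φ A := by
    intro a ha
    rw [map_prod]
    refine Fintype.prod_equiv (Equiv.mulLeft (⟨a, ha⟩ : A)) _ _ fun x => ?_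
    change φ a (φ (x : G) u) = φ (a * x) u
    rw [φ_mul]
  rwa [F.fix_eq, Subgroup.mem_bot] at this

theorem Frame.pow_bijective (F : Frame φ r A) {j : ℕ} (hj : ¬ r ∣ j) :
    Function.Bijective (fun x : A => x ^ j) := by
  haveI := Fact.mk F.prime
  have hcop : (Nat.card A).Coprime j := by
    have hp : IsPGroup r A := fun x => ⟨1, Subtype.ext (by rw [SubgroupClass.coe_pow, pow_one]; exact F.exp x x.2)⟩
    obtain ⟨i, hi⟩ := IsPGroup.iff_card.1 hp
    rw [hi]; exact Nat.Coprime.pow_left i (F.prime.coprime_iff_not_dvd.2 hj)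
  exact (powCoprime hcop).bijective

theorem Frame.coprime_pow_eq_one (F : Frame φ r A) {u : V} (h : u ^ Nat.card A = 1) : u = 1 :=
  orderOf_eq_one_iff.1 (Nat.eq_one_of_dvd_coprimes F.coprime (orderOf_dvd_of_pow_eq_one h) (orderOf_dvd_natCard u))

/-- An endomorphism of `A` preserving a hyperplane is a power map modulo it. -/
theorem Frame.scalar (F : Frame φ r A) {B : Subgroup G} (hB : B ≤ A) (hidx : B.relIndex A = r)
    (f : G →* G) (hfA : ∀ a ∈ A, f a ∈ A) (hfB : ∀ b ∈ B, f b ∈ B) :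
    ∃ k : ℕ, ∀ a ∈ A, f a * (a ^ k)⁻¹ ∈ B := by
  haveI := Fact.mk F.prime
  haveI : IsMulCommutative A := ⟨⟨fun a b => Subtype.ext (F.comm a a.2 b b.2)⟩⟩
  obtain ⟨x, hx, hxB⟩ : ∃ x ∈ A, x ∉ B := by
    refine SetLike.not_le_iff_exists.1 fun hle => ?_
    rw [Subgroup.relIndex_eq_one.2 hle] at hidx
    exact F.prime.ne_one hidx.symm
  have hle : B ⊔ Subgroup.zpowers x ≤ A := sup_le hB (Subgroup.zpowers_le.2 hx)
  have he : B ⊔ Subgroup.zpowers x = A := by
    have h1 := Subgroup.relIndex_mul_relIndex B (B ⊔ Subgroup.zpowers x) A le_sup_left hle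
    rw [CfsgLib.CoprimeAction.relIndex_sup_zpowers hB hx (F.exp x hx) hxB, hidx] at h1
    exact le_antisymm hle (Subgroup.relIndex_eq_one.1 (Nat.eq_of_mul_eq_mul_left F.prime.pos (h1.trans (mul_one r).symm)))
  have key : ∀ a ∈ A, ∃ b ∈ B, ∃ i : ℕ, a = b * x ^ i := by
    intro a ha
    rw [← he] at ha
    have hn : Subgroup.zpowers x ≤ Subgroup.normalizer (B : Set G) := by
      refine Subgroup.zpowers_le.2 (Subgroup.mem_normalizer_iff.2 fun y => ⟨fun hy => ?_, fun hy => ?_⟩)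
      · rwa [F.comm x hx y (hB hy), mul_inv_cancel_right]
      · have h1 := hB hy
        have hyA : y ∈ A := by
          have := mul_mem (mul_mem (inv_mem hx) h1) hx
          simpa [mul_assoc] using this
        rwa [F.comm x hx y hyA, mul_inv_cancel_right] at hy
    have hmem : a ∈ ((B : Set G) * (Subgroup.zpowers x : Set G)) := by
      rw [← Subgroup.coe_mul_of_right_le_normalizer_left _ _ hn]
      exact ha
    obtain ⟨b, hb, z, hz, rfl⟩ := hmem
    obtain ⟨i, rfl⟩ := (isOfFinOrder_of_finite x).mem_powers_iff_mem_zpowers.2 hz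
    exact ⟨b, hb, i, rfl⟩
  obtain ⟨b0, hb0, k, hk⟩ := key (f x) (hfA x hx)
  refine ⟨k, fun a ha => ?_⟩
  obtain ⟨b, hb, i, rfl⟩ := key a ha
  have e : f (b * x ^ i) * ((b * x ^ i) ^ k)⁻¹ = f b * b0 ^ i * (b ^ k)⁻¹ := by
    rw [map_mul, map_pow, hk, Commute.mul_pow (F.comm b0 (hB hb0) _ (pow_mem hx k)),
      Commute.mul_pow (F.comm b (hB hb) _ (pow_mem hx i)), mul_inv_rev, ← pow_mul, ← pow_mul, mul_comm k i,
      ← mul_assoc, ← mul_assoc, mul_inv_cancel_right]
  rw [e]
  exact mul_mem (mul_mem (hfB b hb) (pow_mem hb0 i)) (inv_mem (pow_mem hb k))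

theorem Frame.conj (F : Frame φ r A) (hAn : A.Normal) (g : G) {B : Subgroup G} (hB : B ≤ A)
    (hidx : B.relIndex A = r) :
    B.map (MulAut.conj g).toMonoidHom ≤ A ∧ (B.map (MulAut.conj g).toMonoidHom).relIndex A = r ∧
      ∀ v ∈ Fix φ B, φ g v ∈ Fix φ (B.map (MulAut.conj g).toMonoidHom) := by
  haveI := hAn
  refine ⟨?_, ?_, ?_⟩
  · rintro _ ⟨b, hb, rfl⟩
    exact hAn.conj_mem b (hB hb) g
  · conv_lhs => rw [← Subgroup.Normal.map_conj_eq (H := A) g]
    rw [← hidx]
    exact Subgroup.relIndex_map_map_of_injective B A (MulAut.conj g).injective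
  · rintro v hv _ ⟨b, hb, rfl⟩
    change φ (g * b * g⁻¹) (φ g v) = φ g v
    rw [← φ_mul, inv_mul_cancel_right, φ_mul, hv b hb]

end CfsgLib.FpfS3
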