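import Mathlib
import Cfsg.Agent.FpfS3.Weights
import Cfsg.Agent.FpfFour.Basic
import Cfsg.Agent.S0033

/-!
`S₃` acting on a group of order prime to 6 and on a faithful irreducible module without common fixed points.
-/

set_option autoImplicit false

namespace CfsgLib.FpfS3

open scoped commutatorElement

/-- The data. -/
structure Setup (G V : Type*) [Group G] [CommGroup V] where
  φ : G →* MulAut V
  ρ : MulAut G
  t : MulAut G
  rv : MulAut V
  tv : MulAut V
  inj : Function.Injective φ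
  r3 : ∀ x, ρ (ρ (ρ x)) = x
  t2 : ∀ x, t (t x) = x
  tr : ∀ x, t (ρ x) = ρ (ρ (t x))
  rv3 : ∀ v, rv (rv (rv v)) = v
  tv2 : ∀ v, tv (tv v) = v
  tvr : ∀ v, tv (rv v) = rv (rv (tv v))
  compat_r : ∀ g v, rv (φ g v) = φ (ρ g) (rv v)
  compat_t : ∀ g v, tv (φ g v) = φ (t g) (tv v)
  fpf : ∀ x, ρ x = x → t x = x → x = 1
  fpfV : ∀ v, rv v = v → tv v = v → v = 1
  copG : (Nat.card G).Coprime 6
  copV : (Nat.card V).Coprime 6
  irr : ∀ U : Subgroup V, (∀ g, ∀ u ∈ U, φ g u ∈ U) → (∀ u ∈ U, rv u ∈ U) → (∀ u ∈ U, tv u ∈ U) →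
    U = ⊥ ∨ U = ⊤

namespace Setup

variable {G V : Type*} [Group G] [Finite G] [CommGroup V] [Finite V] (S : Setup G V)

omit [Finite G] [Finite V] in
theorem tr' (x : G) : S.t (S.ρ (S.ρ x)) = S.ρ (S.t x) := by rw [S.tr, S.tr, S.r3]

omit [Finite G] [Finite V] in
theorem tvr' (v : V) : S.tv (S.rv (S.rv v)) = S.rv (S.tv v) := by rw [S.tvr, S.tvr, S.rv3]

theorem eq_one_of_sq {M : Type*} [Group M] [Finite M] (h : (Nat.card M).Coprime 6) {x : M}
    (hx : x ^ 2 = 1) : x = 1 :=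
  orderOf_eq_one_iff.1 (Nat.eq_one_of_dvd_coprimes ((h.coprime_dvd_right (by norm_num : 2 ∣ 6))) (orderOf_dvd_natCard x) (orderOf_dvd_of_pow_eq_one hx))

theorem eq_one_of_cube {M : Type*} [Group M] [Finite M] (h : (Nat.card M).Coprime 6) {x : M}
    (hx : x ^ 3 = 1) : x = 1 :=
  orderOf_eq_one_iff.1 (Nat.eq_one_of_dvd_coprimes ((h.coprime_dvd_right (by norm_num : 3 ∣ 6))) (orderOf_dvd_natCard x) (orderOf_dvd_of_pow_eq_one hx))

theorem mem_of_cube {M : Type*} [Group M] [Finite M] (h : (Nat.card M).Coprime 6) {K : Subgroup M} {x : M}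
    (hx : x ^ 3 ∈ K) : x ∈ K := by
  obtain ⟨k, hk⟩ := exists_pow_eq_self_of_coprime (x := x) (n := 3)
    ((h.symm.coprime_dvd_left (by norm_num : 3 ∣ 6)).coprime_dvd_right (orderOf_dvd_natCard x))
  exact hk ▸ pow_mem hx k

theorem mem_of_sq {M : Type*} [Group M] [Finite M] (h : (Nat.card M).Coprime 6) {K : Subgroup M} {x : M}
    (hx : x ^ 2 ∈ K) : x ∈ K := by
  obtain ⟨k, hk⟩ := exists_pow_eq_self_of_coprime (x := x) (n := 2)
    ((h.symm.coprime_dvd_left (by norm_num : 2 ∣ 6)).coprime_dvd_right (orderOf_dvd_natCard x))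
  exact hk ▸ pow_mem hx k

theorem t_eq_inv {c : G} (hc : S.ρ c = c) : S.t c = c⁻¹ := by
  let M : Subgroup G :=
    { carrier := {x | S.ρ x = x}
      one_mem' := by simp
      mul_mem' := fun {a b} (ha : S.ρ a = a) (hb : S.ρ b = b) => by simp [ha, hb]
      inv_mem' := fun {a} (ha : S.ρ a = a) => by simp [ha] }
  obtain ⟨x, -, rfl⟩ := CfsgLib.FpfFour.exists_inv_mul_eq S.t M
    (fun x (hx : S.ρ x = x) => by
      show S.ρ (S.t x) = S.t x
      rw [← S.tr', hx, hx])
    (fun x hx hx' => S.fpf x hx hx') (show c ∈ M from hc)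
  rw [map_mul, map_inv, S.t2, mul_inv_rev, inv_inv]

theorem C_comm {c d : G} (hc : S.ρ c = c) (hd : S.ρ d = d) : c * d = d * c := by
  have h := S.t_eq_inv (show S.ρ (c * d) = c * d by rw [map_mul, hc, hd])
  rw [map_mul, S.t_eq_inv hc, S.t_eq_inv hd, mul_inv_rev] at h
  have := congrArg (·⁻¹) h
  simpa using this.symm

theorem tv_eq_inv {v : V} (hv : S.rv v = v) : S.tv v = v⁻¹ :=
  eq_inv_of_mul_eq_one_right (S.fpfV _ (by rw [map_mul, hv, ← S.tvr', hv, hv])
    (by rw [map_mul, S.tv2, mul_comm]))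

theorem C_fix {c : G} (hc : S.ρ c = c) {v : V} (hv : S.rv v = v) : S.φ c v = v := by
  have h := S.tv_eq_inv (show S.rv (S.φ c v) = S.φ c v by rw [S.compat_r, hc, hv])
  rw [S.compat_t, S.t_eq_inv hc, S.tv_eq_inv hv, map_inv (S.φ c⁻¹), inv_inj] at h
  -- `c ^ 2` fixes `v`
  let K : Subgroup G :=
    { carrier := {y | S.φ y v = v}
      one_mem' := φ_one v
      mul_mem' := fun {a b} (ha : S.φ a v = v) (hb : S.φ b v = v) => by
        show S.φ (a * b) v = v
        rw [φ_mul, hb, ha]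
      inv_mem' := fun {a} (ha : S.φ a v = v) => inv_fix ha }
  refine mem_of_sq S.copG (K := K) ?_
  show S.φ (c ^ 2) v = v
  rw [pow_two, φ_mul]
  conv_lhs => rw [← h, ← φ_mul, mul_inv_cancel, φ_one]

theorem comm_cube {M : Type*} [CommGroup M] (a y z : M) :
    a * y * z * (a ^ 3)⁻¹ = (z * y⁻¹) * ((y * a⁻¹) * (y * a⁻¹)) := by
  apply Additive.ofMul.injective
  simp only [ofMul_mul, ofMul_inv, ofMul_pow]
  abel

/-- An invariant normal subgroup. -/
structure Inv (A : Subgroup G) : Prop where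
  normal : A.Normal
  hr : ∀ a ∈ A, S.ρ a ∈ A
  ht : ∀ a ∈ A, S.t a ∈ A

theorem frame {A : Subgroup G} (hA : S.Inv A) {r : ℕ} (hr : r.Prime) (hexp : ∀ a ∈ A, a ^ r = 1)
    (hcomm : ∀ a ∈ A, ∀ b ∈ A, a * b = b * a) (hA1 : A ≠ ⊥) {q : ℕ} [Fact q.Prime]
    (hVq : ∀ v : V, v ^ q = 1) [Nontrivial V] : Frame S.φ r A := by
  haveI := Fact.mk hr
  have hfix : Fix S.φ A = ⊥ := by
    refine (S.irr _ ?_ ?_ ?_).resolve_right fun e => hA1 ?_
    · intro g u hu a ha
      have h := hu _ (hA.normal.conj_mem a ha g⁻¹)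
      rw [inv_inv] at h
      calc S.φ a (S.φ g u) = S.φ g (S.φ (g⁻¹ * a * g) u) := by rw [← φ_mul, ← φ_mul]; congr 2; group
        _ = S.φ g u := by rw [h]
    · intro u hu a ha
      have h := congrArg S.rv (hu _ (hA.hr _ (hA.hr _ ha)))
      rwa [S.compat_r, S.r3] at h
    · intro u hu a ha
      have h := congrArg S.tv (hu _ (hA.ht _ ha))
      rwa [S.compat_t, S.t2] at h
    · rw [eq_bot_iff]
      intro a ha
      rw [Subgroup.mem_bot]
      exact eq_one_of_forall S.inj fun v => (e ▸ Subgroup.mem_top v : v ∈ Fix S.φ A) a ha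
  refine ⟨hr, hexp, hcomm, hA1, hfix, ?_⟩
  have hP : IsPGroup r A := fun x => ⟨1, Subtype.ext (by rw [SubgroupClass.coe_pow, pow_one]; exact hexp x x.2)⟩
  obtain ⟨i, hi⟩ := IsPGroup.iff_card.1 hP
  obtain ⟨j, hj⟩ := IsPGroup.iff_card.1 (show IsPGroup q V from fun v => ⟨1, by rw [pow_one]; exact hVq v⟩)
  rw [hi, hj]
  refine Nat.Coprime.pow i j ((Nat.coprime_primes hr Fact.out).2 fun e => ?_)
  subst e
  letI : MulAction G V :=
    { smul := fun g v => S.φ g v
      one_smul := fun v => φ_one v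
      mul_smul := fun x y v => φ_mul x y v }
  have hmod := hP.card_modEq_card_fixedPoints V
  have hfp : MulAction.fixedPoints A V = ({1} : Set V) := by
    ext v
    constructor
    · intro hv
      have : v ∈ Fix S.φ A := fun a ha => hv ⟨a, ha⟩
      rwa [hfix, Subgroup.mem_bot] at this
    · rintro rfl a
      exact map_one (S.φ a)
  rw [hfp, Nat.card_coe_set_eq ({1} : Set V), Set.ncard_singleton, hj] at hmod
  rcases j with _ | j
  · rw [pow_zero] at hj
    exact not_subsingleton V ((Nat.card_eq_one_iff_unique.1 hj).1)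
  · rw [Nat.ModEq, pow_succ, Nat.mul_mod_left, Nat.mod_eq_of_lt hr.one_lt] at hmod
    exact zero_ne_one hmod

section Weights

variable {r : ℕ} {A : Subgroup G} (hA : S.Inv A) (F : Frame S.φ r A)
  {B : Subgroup G} (hB : B ≤ A) (hidx : B.relIndex A = r)

include hA F in
theorem n_fixed {a : G} (ha : a ∈ A) :
    a * S.ρ a * S.ρ (S.ρ a) ∈ A ∧ S.ρ (a * S.ρ a * S.ρ (S.ρ a)) = a * S.ρ a * S.ρ (S.ρ a) := by
  refine ⟨mul_mem (mul_mem ha (hA.hr a ha)) (hA.hr _ (hA.hr a ha)), ?_⟩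
  rw [map_mul, map_mul, S.r3, F.comm _ (mul_mem (hA.hr a ha) (hA.hr _ (hA.hr a ha))) a ha, mul_assoc]

theorem rv_mem {v : V} (hv : v ∈ Fix S.φ B) : S.rv v ∈ Fix S.φ (B.map S.ρ.toMonoidHom) := by
  rintro _ ⟨b, hb, rfl⟩
  change S.φ (S.ρ b) (S.rv v) = S.rv v
  rw [← S.compat_r, hv b hb]

include hA hB hidx in
theorem map_hyper (f : MulAut G) (hf : ∀ a ∈ A, f a ∈ A) :
    B.map f.toMonoidHom ≤ A ∧ (B.map f.toMonoidHom).relIndex A = r := by
  have := hA
  refine ⟨by rintro _ ⟨b, hb, rfl⟩; exact hf b (hB hb), ?_⟩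
  have hmap : A.map f.toMonoidHom = A := by
    refine Subgroup.eq_of_le_of_card_ge (by rintro _ ⟨a, ha, rfl⟩; exact hf a ha) ?_
    rw [Subgroup.card_map_of_injective (f := f.toMonoidHom) f.injective]
  conv_lhs => rw [← hmap]
  rw [← hidx]
  exact Subgroup.relIndex_map_map_of_injective B A f.injective

theorem map_eq_of_le (f : MulAut G) (h : ∀ b ∈ B, f b ∈ B) : B.map f.toMonoidHom = B := by
  refine Subgroup.eq_of_le_of_card_ge (by rintro _ ⟨b, hb, rfl⟩; exact h b hb) ?_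
  rw [Subgroup.card_map_of_injective (f := f.toMonoidHom) f.injective]

theorem orbit_ne (hn : ¬ ∀ b ∈ B, S.ρ b ∈ B) :
    B ≠ B.map S.ρ.toMonoidHom ∧ B ≠ (B.map S.ρ.toMonoidHom).map S.ρ.toMonoidHom ∧
      B.map S.ρ.toMonoidHom ≠ (B.map S.ρ.toMonoidHom).map S.ρ.toMonoidHom := by
  have h1 : B ≠ B.map S.ρ.toMonoidHom := fun e => hn fun b hb => e ▸ ⟨b, hb, rfl⟩
  refine ⟨h1, fun e => h1 ?_, fun e => h1 (Subgroup.map_injective S.ρ.injective e)⟩
  conv_rhs => rw [e]
  ext x
  simp only [Subgroup.mem_map]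
  constructor
  · intro hx
    exact ⟨S.ρ (S.ρ x), ⟨S.ρ x, ⟨x, hx, rfl⟩, rfl⟩, S.r3 x⟩
  · rintro ⟨_, ⟨_, ⟨y, hy, rfl⟩, rfl⟩, rfl⟩
    show S.ρ (S.ρ (S.ρ y)) ∈ B
    rwa [S.r3]

omit [Finite G] [Finite V] in
theorem orbit_fixed (v : V) : S.rv (v * S.rv v * S.rv (S.rv v)) = v * S.rv v * S.rv (S.rv v) := by
  rw [map_mul, map_mul, S.rv3]
  exact mul_comm _ _ |>.trans (mul_assoc _ _ _).symm

omit [Finite G] [Finite V] in
include F in
theorem cube_identity {a y z : G} (ha : a ∈ A) (hy : y ∈ A) (hz : z ∈ A) :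
    a * y * z * (a ^ 3)⁻¹ = (z * y⁻¹) * ((y * a⁻¹) * (y * a⁻¹)) := by
  letI : CommGroup A := { (inferInstance : Group A) with mul_comm := fun u v => Subtype.ext (F.comm u u.2 v v.2) }
  exact congrArg Subtype.val (comm_cube (⟨a, ha⟩ : A) ⟨y, hy⟩ ⟨z, hz⟩)

include hA F hB hidx in
theorem fixed_mem_of_not_inv (hn : ¬ ∀ b ∈ B, S.ρ b ∈ B) {v : V} (hv : v ∈ Fix S.φ B) (hv1 : v ≠ 1)
    {z : G} (hz : z ∈ A) (hzρ : S.ρ z = z) : z ∈ B := by
  by_contra hzB
  obtain ⟨h01, h02, h12⟩ := S.orbit_ne hn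
  obtain ⟨hB1, hidx1⟩ := S.map_hyper hA hB hidx S.ρ hA.hr
  obtain ⟨hB2, hidx2⟩ := S.map_hyper hA hB1 hidx1 S.ρ hA.hr
  have hm : ∀ {D : Subgroup G}, D ≤ A → ∀ {u : V}, u ∈ Fix S.φ D → S.φ z u * u⁻¹ ∈ Fix S.φ D :=
    fun {D} hD {u} hu => mul_mem (F.apply_mem hD hz hu) (inv_mem hu)
  have h := F.indep_three ⟨hB, hidx, hm hB hv⟩ ⟨hB1, hidx1, hm hB1 (S.rv_mem hv)⟩
    ⟨hB2, hidx2, hm hB2 (S.rv_mem (S.rv_mem hv))⟩ h01 h02 h12 (by
      have h1 := S.C_fix hzρ (S.orbit_fixed v)
      rw [map_mul, map_mul] at h1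
      rw [← div_eq_mul_inv, ← div_eq_mul_inv, ← div_eq_mul_inv, div_mul_div_comm, div_mul_div_comm, h1, div_self'])
  exact hv1 (F.hyper hB hidx hz hzB hv (mul_inv_eq_one.1 h.1))

include hA F hB hidx in
theorem rho_id_of_fixed (hinv : ∀ b ∈ B, S.ρ b ∈ B) {z : G} (hz : z ∈ A) (hzρ : S.ρ z = z) (hzB : z ∉ B) :
    ∀ a ∈ A, S.ρ a * a⁻¹ ∈ B := by
  obtain ⟨k, hk⟩ := F.scalar hB hidx S.ρ.toMonoidHom hA.hr hinv
  have hzk := hk z hz
  replace hzk : S.ρ z * (z ^ k)⁻¹ ∈ B := hzk
  rw [hzρ] at hzk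
  -- hence `z ^ (k - 1) ∈ B`
  have hmod : ∀ a ∈ A, a ^ k * a⁻¹ ∈ B := by
    rcases k with _ | k
    · exact absurd (by simpa using hzk) hzB
    have h1 : z ^ k ∈ B := by
      have := inv_mem hzk
      rwa [mul_inv_rev, inv_inv, pow_succ, mul_inv_cancel_right] at this
    have hrk : r ∣ k := by
      by_contra hnd
      obtain ⟨j, hj⟩ := exists_pow_eq_self_of_coprime (x := z) (n := k)
        (((F.prime.coprime_iff_not_dvd.2 hnd).symm).coprime_dvd_right (orderOf_dvd_of_pow_eq_one (F.exp z hz)))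
      exact hzB (hj ▸ pow_mem h1 j)
    obtain ⟨j, rfl⟩ := hrk
    intro a ha
    rw [pow_succ, pow_mul, F.exp a ha, one_pow, one_mul, mul_inv_cancel]
    exact one_mem B
  intro a ha
  have h2 := mul_mem (hk a ha) (hmod a ha)
  replace h2 : S.ρ a * (a ^ k)⁻¹ * (a ^ k * a⁻¹) ∈ B := h2
  rwa [mul_assoc, inv_mul_cancel_left] at h2

include F in
theorem pow_norm {u : V} {j : ℕ} (hj : ¬ r ∣ j) [Fintype A] : ∏ x : A, S.φ ((x : G) ^ j) u = 1 := by
  simpa using F.norm _ (F.pow_bijective hj) u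

include hA F hB hidx in
/-- A `ρ`-invariant weight containing the fixed points of `ρ` has a fixed vector and a nontrivial multiplier. -/
theorem exists_fixed_of_inv (hinv : ∀ b ∈ B, S.ρ b ∈ B) (hA0 : ∀ z ∈ A, S.ρ z = z → z ∈ B)
    {v : V} (hv : v ∈ Fix S.φ B) (hv1 : v ≠ 1) :
    (∃ v0 ∈ Fix S.φ B, S.rv v0 = v0 ∧ v0 ≠ 1) ∧ ∃ k : ℕ, ¬ r ∣ k + (r - 1) ∧ ¬ r ∣ k * k + (r - 1) ∧
      ∀ a ∈ A, S.ρ a * (a ^ k)⁻¹ ∈ B := by
  obtain ⟨k, hk⟩ := F.scalar hB hidx S.ρ.toMonoidHom hA.hr hinv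
  replace hk : ∀ a ∈ A, S.ρ a * (a ^ k)⁻¹ ∈ B := hk
  have hk2 : ∀ a ∈ A, S.ρ (S.ρ a) * (a ^ (k * k))⁻¹ ∈ B := by
    intro a ha
    have h1 := hk _ (hA.hr a ha)
    have h2 := pow_mem (hk a ha) k
    rw [Commute.mul_pow (F.comm _ (hA.hr a ha) _ (inv_mem (pow_mem ha k))), inv_pow, ← pow_mul] at h2
    have := mul_mem h1 h2
    rwa [mul_assoc, inv_mul_cancel_left] at this
  -- the multiplier is not one
  have hne : ¬ r ∣ k + (r - 1) ∧ ¬ r ∣ k * k + (r - 1) := by
    have key : ¬ r ∣ k + (r - 1) := by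
      intro hd
      have hk1 : ∀ a ∈ A, a ^ k = a := by
        intro a ha
        obtain ⟨j, hj⟩ := hd
        calc a ^ k = a ^ (k + (r - 1)) * a := by
              rw [← pow_succ, show k + (r - 1) + 1 = k + r by have := F.prime.pos; omega, pow_add, F.exp a ha, mul_one]
          _ = a := by rw [hj, pow_mul, F.exp a ha, one_pow, one_mul]
      refine hv1 ?_
      have hall : ¬ A ≤ B := fun hle => by
        rw [Subgroup.relIndex_eq_one.2 hle] at hidx
        exact F.prime.ne_one hidx.symm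
      obtain ⟨a, ha, haB⟩ := SetLike.not_le_iff_exists.1 hall
      exfalso
      apply haB
      obtain ⟨hnA, hnρ⟩ := S.n_fixed hA F ha
      have h1 := hk a ha
      rw [hk1 a ha] at h1
      have h2 := hinv _ h1
      rw [map_mul, map_inv] at h2
      have h3 := hA0 _ hnA hnρ
      refine mem_of_cube S.copG ?_
      have e := S.cube_identity F ha (hA.hr a ha) (hA.hr _ (hA.hr a ha))
      have h4 := mul_mem (inv_mem (mul_mem h2 (mul_mem h1 h1))) h3
      rwa [← e, mul_inv_rev, inv_inv, mul_assoc, inv_mul_cancel, mul_one] at h4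
    refine ⟨key, fun hd => key ?_⟩
    -- a square root of one which is a cube root of one
    by_contra hd1
    have h3 : ∀ a ∈ A, (a ^ (k * k * k)) * a⁻¹ ∈ B := by
      intro a ha
      have h1 := hk _ (hA.hr _ (hA.hr a ha))
      rw [S.r3] at h1
      have h2 := pow_mem (hk2 a ha) k
      rw [Commute.mul_pow (F.comm _ (hA.hr _ (hA.hr a ha)) _ (inv_mem (pow_mem ha _))), inv_pow, ← pow_mul] at h2
      have := inv_mem (mul_mem h1 h2)
      rwa [mul_assoc, inv_mul_cancel_left, mul_inv_rev, inv_inv] at this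
    have h4 : ∀ a ∈ A, a ^ (k * k) = a := by
      intro a ha
      obtain ⟨j, hj⟩ := hd
      calc a ^ (k * k) = a ^ (k * k + (r - 1)) * a := by
            rw [← pow_succ, show k * k + (r - 1) + 1 = k * k + r by have := F.prime.pos; omega, pow_add, F.exp a ha, mul_one]
        _ = a := by rw [hj, pow_mul, F.exp a ha, one_pow, one_mul]
    have hall : ¬ A ≤ B := fun hle => by
      rw [Subgroup.relIndex_eq_one.2 hle] at hidx
      exact F.prime.ne_one hidx.symm
    obtain ⟨a, ha, haB⟩ := SetLike.not_le_iff_exists.1 hall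
    apply haB
    have h5 := h3 a ha
    rw [pow_mul, h4 a ha] at h5
    have h6 : a ^ (k + (r - 1)) ∈ B := by
      have : a ^ (r - 1) = a⁻¹ := by
        rw [eq_inv_iff_mul_eq_one, ← pow_succ, Nat.sub_add_cancel F.prime.pos, F.exp a ha]
      rwa [pow_add, this]
    obtain ⟨j, hj⟩ := exists_pow_eq_self_of_coprime (x := a) (n := k + (r - 1))
      (((F.prime.coprime_iff_not_dvd.2 hd1).symm).coprime_dvd_right (orderOf_dvd_of_pow_eq_one (F.exp a ha)))
    exact hj ▸ pow_mem h6 j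
  refine ⟨?_, k, hne.1, hne.2, hk⟩
  by_contra hno
  push Not at hno
  have hBρ := map_eq_of_le S.ρ hinv
  have hrmem : ∀ {u : V}, u ∈ Fix S.φ B → S.rv u ∈ Fix S.φ B := fun hu => hBρ ▸ S.rv_mem hu
  have hsum : ∀ u ∈ Fix S.φ B, u * S.rv u * S.rv (S.rv u) = 1 := fun u hu =>
    hno _ (mul_mem (mul_mem hu (hrmem hu)) (hrmem (hrmem hu))) (S.orbit_fixed u)
  -- every power map twist of a relation
  apply hv1
  haveI : Fintype A := Fintype.ofFinite _
  refine F.coprime_pow_eq_one ?_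
  have hterm : ∀ x : A, v * S.φ ((x : G) ^ (k + (r - 1))) (S.rv v) *
      S.φ ((x : G) ^ (k * k + (r - 1))) (S.rv (S.rv v)) = 1 := by
    intro x
    have h := hsum _ (F.apply_mem hB x.2 hv)
    have hr1 : (x : G) ^ (r - 1) = (x : G)⁻¹ := by
      rw [eq_inv_iff_mul_eq_one, ← pow_succ, Nat.sub_add_cancel F.prime.pos, F.exp x x.2]
    have e1 : ∀ {u : V}, u ∈ Fix S.φ B → S.φ (S.ρ x) u = S.φ ((x : G) ^ k) u := fun {u} hu => by
      rw [← inv_mul_cancel_right (S.ρ x) ((x : G) ^ k)]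
      rw [F.comm _ (mul_mem (hA.hr _ x.2) (inv_mem (pow_mem x.2 k))) _ (pow_mem x.2 k), φ_mul, hu _ (hk x x.2)]
    have e2 : ∀ {u : V}, u ∈ Fix S.φ B → S.φ (S.ρ (S.ρ x)) u = S.φ ((x : G) ^ (k * k)) u := fun {u} hu => by
      rw [← inv_mul_cancel_right (S.ρ (S.ρ x)) ((x : G) ^ (k * k))]
      rw [F.comm _ (mul_mem (hA.hr _ (hA.hr _ x.2)) (inv_mem (pow_mem x.2 _))) _ (pow_mem x.2 _), φ_mul,
        hu _ (hk2 x x.2)]
    rw [S.compat_r, S.compat_r, e1 (hrmem hv), e2 (hrmem (hrmem hv))] at h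
    have h' := congrArg (S.φ (x : G)⁻¹) h
    rw [map_mul, map_mul, map_one, ← φ_mul, ← φ_mul, ← φ_mul, inv_mul_cancel, φ_one, ← hr1, ← pow_add, ← pow_add,
      add_comm (r - 1), add_comm (r - 1)] at h'
    exact h'
  have h := Finset.prod_congr rfl (fun x (_ : x ∈ (Finset.univ : Finset A)) => hterm x)
  rw [Finset.prod_mul_distrib, Finset.prod_mul_distrib, S.pow_norm F hne.1, S.pow_norm F hne.2, mul_one, mul_one,
    Finset.prod_const, Finset.prod_const_one, Finset.card_univ, ← Nat.card_eq_fintype_card] at h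
  exact h

end Weights

theorem C_centralizes {r : ℕ} {A : Subgroup G} (hA : S.Inv A) (F : Frame S.φ r A) {c : G} (hc : S.ρ c = c) :
    ∀ a ∈ A, c * a = a * c := by
  classical
  intro a ha
  haveI : Fintype A := Fintype.ofFinite _
  suffices h : Fix S.φ (Subgroup.zpowers (c * a * c⁻¹ * a⁻¹)) = ⊤ by
    rw [← mul_inv_eq_iff_eq_mul, ← mul_inv_eq_one]
    exact eq_one_of_forall S.inj fun v => (h ▸ Subgroup.mem_top v : v ∈ Fix S.φ _) _ (Subgroup.mem_zpowers _)
  refine F.span fun B hB hidx v hv => ?_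
  rcases eq_or_ne v 1 with rfl | hv1
  · exact one_mem _
  suffices h : c * a * c⁻¹ * a⁻¹ ∈ B from fun b hb => hv b (Subgroup.zpowers_le.2 h hb)
  have hyA : c * a * c⁻¹ ∈ A := hA.normal.conj_mem a ha c
  by_cases hinv : ∀ b ∈ B, S.ρ b ∈ B
  · by_cases hA0 : ∀ z ∈ A, S.ρ z = z → z ∈ B
    · obtain ⟨⟨v0, hv0B, hv0, hv01⟩, k, hk1, hk2, hk⟩ := S.exists_fixed_of_inv hA F hB hidx hinv hA0 hv hv1
      obtain ⟨hcle, hcidx, hcfix⟩ := F.conj hA.normal c hB hidx
      have hcB : ∀ b ∈ B, c * b * c⁻¹ ∈ B := by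
        intro b hb
        by_contra hbB
        have h := hcfix v0 hv0B
        rw [S.C_fix hc hv0] at h
        exact hv01 (F.hyper hB hidx (hcle ⟨b, hb, rfl⟩) hbB hv0B (h _ ⟨b, hb, rfl⟩))
      obtain ⟨l, hl⟩ := F.scalar hB hidx (MulAut.conj c).toMonoidHom (fun x hx => hA.normal.conj_mem x hx c) hcB
      replace hl : ∀ x ∈ A, c * x * c⁻¹ * (x ^ l)⁻¹ ∈ B := hl
      have act : ∀ {x y : G}, x ∈ A → y ∈ A → x * y⁻¹ ∈ B → S.φ x v0 = S.φ y v0 := fun {x y} hx hy hxy => by
        rw [← inv_mul_cancel_right x y, F.comm _ (mul_mem hx (inv_mem hy)) y hy, φ_mul, hv0B _ hxy]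
      have hk' : ∀ x ∈ A, S.ρ (S.ρ x) * (x ^ (k * k))⁻¹ ∈ B := by
        intro x hx
        have h1 := hk _ (hA.hr x hx)
        have h2 := pow_mem (hk x hx) k
        rw [Commute.mul_pow (F.comm _ (hA.hr x hx) _ (inv_mem (pow_mem hx k))), inv_pow, ← pow_mul] at h2
        have := mul_mem h1 h2
        rwa [mul_assoc, inv_mul_cancel_left] at this
      have hrel : ∀ x ∈ A, S.φ (x ^ l) v0 * S.φ ((x ^ k) ^ l) v0 * S.φ ((x ^ (k * k)) ^ l) v0 =
          S.φ x v0 * S.φ (x ^ k) v0 * S.φ (x ^ (k * k)) v0 := by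
        intro x hx
        have h := S.C_fix hc (S.orbit_fixed (S.φ x v0))
        rw [S.compat_r, S.compat_r, hv0, hv0, act (hA.hr x hx) (pow_mem hx k) (hk x hx),
          act (hA.hr _ (hA.hr x hx)) (pow_mem hx _) (hk' x hx)] at h
        have hcc : ∀ z ∈ A, S.φ c (S.φ z v0) = S.φ (z ^ l) v0 := fun z hz => by
          conv_lhs => rw [← S.C_fix (show S.ρ c⁻¹ = c⁻¹ by rw [map_inv, hc]) hv0, ← φ_mul, ← φ_mul]
          exact act (hA.normal.conj_mem z hz c) (pow_mem hz l) (hl z hz)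
        rwa [map_mul, map_mul, hcc x hx, hcc _ (pow_mem hx k), hcc _ (pow_mem hx _)] at h
      -- some multiplier is one
      have hcase : r ∣ l + (r - 1) ∨ r ∣ k * l + (r - 1) ∨ r ∣ k * k * l + (r - 1) := by
        by_contra hno
        push Not at hno
        refine hv01 (F.coprime_pow_eq_one ?_)
        have hterm : ∀ x : A, S.φ ((x : G) ^ (l + (r - 1))) v0 * S.φ ((x : G) ^ (k * l + (r - 1))) v0 *
            S.φ ((x : G) ^ (k * k * l + (r - 1))) v0 =
            v0 * S.φ ((x : G) ^ (k + (r - 1))) v0 * S.φ ((x : G) ^ (k * k + (r - 1))) v0 := by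
          intro x
          have hr1 : (x : G) ^ (r - 1) = (x : G)⁻¹ := by
            rw [eq_inv_iff_mul_eq_one, ← pow_succ, Nat.sub_add_cancel F.prime.pos, F.exp x x.2]
          have h' := congrArg (S.φ (x : G)⁻¹) (hrel x x.2)
          rw [map_mul (S.φ (x : G)⁻¹), map_mul (S.φ (x : G)⁻¹), map_mul (S.φ (x : G)⁻¹), map_mul (S.φ (x : G)⁻¹)] at h'
          simp only [← φ_mul] at h'
          rw [inv_mul_cancel, φ_one] at h'
          simp only [← hr1, ← pow_mul, ← pow_add] at h'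
          simpa only [add_comm (r - 1)] using h'
        have h := Finset.prod_congr rfl (fun x (_ : x ∈ (Finset.univ : Finset A)) => hterm x)
        rw [Finset.prod_mul_distrib, Finset.prod_mul_distrib, Finset.prod_mul_distrib, Finset.prod_mul_distrib,
          S.pow_norm F hno.1, S.pow_norm F hno.2.1, S.pow_norm F hno.2.2, S.pow_norm F hk1, S.pow_norm F hk2,
          mul_one, mul_one, mul_one, mul_one, Finset.prod_const, Finset.card_univ, ← Nat.card_eq_fintype_card] at h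
        exact h.symm
      -- so conjugation by `c` has order dividing three modulo `B`
      let K : Subgroup G :=
        { carrier := {g | g ∈ Subgroup.normalizer (B : Set G) ∧ ∀ x ∈ A, g * x * g⁻¹ * x⁻¹ ∈ B}
          one_mem' := ⟨one_mem _, fun x _ => by simp⟩
          mul_mem' := fun {g h} hg hh => ⟨mul_mem hg.1 hh.1, fun x hx => by
            have := mul_mem (hg.2 _ (hA.normal.conj_mem x hx h)) (hh.2 x hx)
            have e : g * h * x * (g * h)⁻¹ * x⁻¹ = g * (h * x * h⁻¹) * g⁻¹ * (h * x * h⁻¹)⁻¹ * (h * x * h⁻¹ * x⁻¹) := by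
              group
            rw [e]; exact this⟩
          inv_mem' := fun {g} hg => ⟨inv_mem hg.1, fun x hx => by
            have := inv_mem (hg.2 _ (hA.normal.conj_mem x hx g⁻¹))
            have e : g⁻¹ * x * g⁻¹⁻¹ * x⁻¹ =
                (g * (g⁻¹ * x * g⁻¹⁻¹) * g⁻¹ * (g⁻¹ * x * g⁻¹⁻¹)⁻¹)⁻¹ := by group
            rw [e]; exact this⟩ }
      suffices hcK : c ∈ K from hcK.2 a ha
      refine mem_of_cube S.copG ⟨pow_mem ?_ 3, ?_⟩
      · rw [Subgroup.mem_normalizer_iff_map_conj_eq]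
        exact map_eq_of_le (MulAut.conj c) hcB
      intro x hx
      -- the cube of the multiplier
      have h3k : ∀ y ∈ A, y ^ (k * k * k) * y⁻¹ ∈ B := by
        intro y hy
        have h1 := hk _ (hA.hr _ (hA.hr y hy))
        rw [S.r3] at h1
        have h2 := pow_mem (hk' y hy) k
        rw [Commute.mul_pow (F.comm _ (hA.hr _ (hA.hr y hy)) _ (inv_mem (pow_mem hy _))), inv_pow, ← pow_mul] at h2
        have := inv_mem (mul_mem h1 h2)
        rwa [mul_assoc, inv_mul_cancel_left, mul_inv_rev, inv_inv] at this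
      have hone : ∀ m : ℕ, r ∣ m + (r - 1) → ∀ y ∈ A, y ^ m = y := by
        intro m ⟨j, hj⟩ y hy
        calc y ^ m = y ^ (m + (r - 1)) * y := by
              rw [← pow_succ, show m + (r - 1) + 1 = m + r by have := F.prime.pos; omega, pow_add, F.exp y hy, mul_one]
          _ = y := by rw [hj, pow_mul, F.exp y hy, one_pow, one_mul]
      have hl3 : ∀ y ∈ A, y ^ (l * l * l) * y⁻¹ ∈ B := by
        intro y hy
        rcases hcase with h | h | h
        · rw [show l * l * l = l * (l * l) by ring, pow_mul, hone l h y hy, pow_mul, hone l h y hy, hone l h y hy,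
            mul_inv_cancel]
          exact one_mem B
        · have h1 := pow_mem (h3k y hy) (l * l * l)
          have e : ∀ z ∈ A, z ^ (k * k * k * (l * l * l)) = z := fun z hz => by
            rw [show k * k * k * (l * l * l) = (k * l) * ((k * l) * (k * l)) by ring, pow_mul, hone _ h z hz,
              pow_mul, hone _ h z hz, hone _ h z hz]
          rw [Commute.mul_pow (F.comm _ (pow_mem hy _) _ (inv_mem hy)), inv_pow, ← pow_mul, e y hy] at h1
          have := inv_mem h1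
          rwa [mul_inv_rev, inv_inv] at this
        · have h1 := pow_mem (h3k y hy) (k * k * k * (l * l * l))
          have e : ∀ z ∈ A, z ^ (k * k * k * (k * k * k * (l * l * l))) = z := fun z hz => by
            rw [show k * k * k * (k * k * k * (l * l * l)) = (k * k * l) * ((k * k * l) * (k * k * l)) by ring,
              pow_mul, hone _ h z hz, pow_mul, hone _ h z hz, hone _ h z hz]
          rw [Commute.mul_pow (F.comm _ (pow_mem hy _) _ (inv_mem hy)), inv_pow, ← pow_mul, e y hy] at h1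
          have h2 := pow_mem (h3k y hy) (l * l * l)
          rw [Commute.mul_pow (F.comm _ (pow_mem hy _) _ (inv_mem hy)), inv_pow, ← pow_mul] at h2
          have := inv_mem (mul_mem h1 h2)
          rwa [mul_assoc, inv_mul_cancel_left, mul_inv_rev, inv_inv] at this
      have e1 := hl x hx
      have hxA : c * x * c⁻¹ ∈ A := hA.normal.conj_mem x hx c
      have e2 := hl _ hxA
      have hxA2 : c * (c * x * c⁻¹) * c⁻¹ ∈ A := hA.normal.conj_mem _ hxA c
      have e3 := hl _ hxA2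
      have f1 := pow_mem e1 (l * l)
      rw [Commute.mul_pow (F.comm _ hxA _ (inv_mem (pow_mem hx l))), inv_pow, ← pow_mul] at f1
      have f2 := pow_mem e2 l
      rw [Commute.mul_pow (F.comm _ hxA2 _ (inv_mem (pow_mem hxA l))), inv_pow, ← pow_mul] at f2
      have f0 := hl3 x hx
      rw [show l * l * l = l * (l * l) by ring] at f0
      have := mul_mem (mul_mem (mul_mem e3 f2) f1) f0
      have e : c ^ 3 * x * (c ^ 3)⁻¹ * x⁻¹ = c * (c * (c * x * c⁻¹) * c⁻¹) * c⁻¹ * x⁻¹ := by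
        simp only [pow_succ, pow_zero, one_mul, mul_inv_rev, mul_assoc]
      rw [e]
      simp only [mul_assoc, inv_mul_cancel_left] at this ⊢
      exact this
    · push Not at hA0
      obtain ⟨z, hz, hzρ, hzB⟩ := hA0
      have hid := S.rho_id_of_fixed hA F hB hidx hinv hz hzρ hzB
      have hcube : ∀ y ∈ A, (y * S.ρ y * S.ρ (S.ρ y)) * (y ^ 3)⁻¹ ∈ B := by
        intro y hy
        have h1 := hid y hy
        have h2 := hid _ (hA.hr y hy)
        rw [S.cube_identity F hy (hA.hr y hy) (hA.hr _ (hA.hr y hy))]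
        exact mul_mem h2 (mul_mem h1 h1)
      refine mem_of_cube S.copG ?_
      have hn1 := S.n_fixed hA F ha
      have hn2 := S.n_fixed hA F hyA
      have e : (c * a * c⁻¹ * S.ρ (c * a * c⁻¹) * S.ρ (S.ρ (c * a * c⁻¹))) = a * S.ρ a * S.ρ (S.ρ a) := by
        have h := S.C_comm hc hn1.2
        simp only [map_mul, map_inv, hc]
        calc c * a * c⁻¹ * (c * S.ρ a * c⁻¹) * (c * S.ρ (S.ρ a) * c⁻¹)
            = c * (a * S.ρ a * S.ρ (S.ρ a)) * c⁻¹ := by group
          _ = _ := by rw [h, mul_inv_cancel_right]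
      have h1 := hcube _ hyA
      have h2 := hcube a ha
      rw [e] at h1
      have h3 := mul_mem (inv_mem h1) h2
      rw [Commute.mul_pow (F.comm _ hyA _ (inv_mem ha)), inv_pow]
      simpa [mul_assoc] using h3
  · -- a regular orbit of three weights
    obtain ⟨h01, h02, h12⟩ := S.orbit_ne hinv
    obtain ⟨hB1, hidx1⟩ := S.map_hyper hA hB hidx S.ρ hA.hr
    obtain ⟨hB2, hidx2⟩ := S.map_hyper hA hB1 hidx1 S.ρ hA.hr
    have hconjρ : ∀ D : Subgroup G, (D.map (MulAut.conj c).toMonoidHom).map S.ρ.toMonoidHom =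
        (D.map S.ρ.toMonoidHom).map (MulAut.conj c).toMonoidHom := by
      intro D
      rw [Subgroup.map_map, Subgroup.map_map]
      congr 1
      ext x
      change S.ρ (c * x * c⁻¹) = c * S.ρ x * c⁻¹
      rw [map_mul, map_mul, map_inv, hc]
    set B' := B.map (MulAut.conj c).toMonoidHom with hB'
    obtain ⟨hc0, hcidx0, hcfix0⟩ := F.conj hA.normal c hB hidx
    obtain ⟨hc1, hcidx1, hcfix1⟩ := F.conj hA.normal c hB1 hidx1
    obtain ⟨hc2, hcidx2, hcfix2⟩ := F.conj hA.normal c hB2 hidx2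
    have hw := S.C_fix hc (S.orbit_fixed v)
    have hcB : B' = B := by
      by_contra hne
      have hrho3 : ∀ D : Subgroup G, ((D.map S.ρ.toMonoidHom).map S.ρ.toMonoidHom).map S.ρ.toMonoidHom = D := by
        intro D
        rw [Subgroup.map_map, Subgroup.map_map]
        ext x
        simp only [Subgroup.mem_map]
        exact ⟨fun ⟨y, hy, e⟩ => by rw [← e]; change S.ρ (S.ρ (S.ρ y)) ∈ D; rwa [S.r3], fun hx => ⟨x, hx, S.r3 x⟩⟩
      -- if the image were another member of the orbit, some power of `c` would rotate the orbit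
      have hnot : ∀ j : ℕ, j = 1 ∨ j = 2 →
          B' ≠ (fun D : Subgroup G => D.map S.ρ.toMonoidHom)^[j] B := by
        intro j hj e
        have hstep : ∀ n : ℕ, B.map (MulAut.conj (c ^ n)).toMonoidHom =
            (fun D : Subgroup G => D.map S.ρ.toMonoidHom)^[j * n] B := by
          intro n
          induction n with
          | zero =>
            simp only [pow_zero, map_one, Nat.mul_zero, Function.iterate_zero, id]
            exact Subgroup.map_id B
          | succ n ih =>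
            have hcomp : B.map (MulAut.conj (c ^ (n + 1))).toMonoidHom =
                (B.map (MulAut.conj (c ^ n)).toMonoidHom).map (MulAut.conj c).toMonoidHom := by
              rw [Subgroup.map_map]
              congr 1
              ext x
              change c ^ (n + 1) * x * (c ^ (n + 1))⁻¹ = c * (c ^ n * x * (c ^ n)⁻¹) * c⁻¹
              rw [pow_succ']; group
            have hit : ∀ i : ℕ, ((fun D : Subgroup G => D.map S.ρ.toMonoidHom)^[i] B).map (MulAut.conj c).toMonoidHom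
                = (fun D : Subgroup G => D.map S.ρ.toMonoidHom)^[i] B' := by
              intro i
              induction i with
              | zero => rfl
              | succ i ih2 =>
                rw [Function.iterate_succ_apply', Function.iterate_succ_apply', ← ih2, hconjρ]
            rw [hcomp, ih, hit, e, ← Function.iterate_add_apply, Nat.mul_succ, add_comm]
        have h1 := hstep (orderOf c)
        rw [pow_orderOf_eq_one, map_one, show (MulEquiv.toMonoidHom (1 : MulAut G)) = MonoidHom.id G from rfl,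
          Subgroup.map_id] at h1
        have hper : Function.IsPeriodicPt (fun D : Subgroup G => D.map S.ρ.toMonoidHom) (j * orderOf c) B := h1.symm
        have hper3 : Function.IsPeriodicPt (fun D : Subgroup G => D.map S.ρ.toMonoidHom) 3 B := hrho3 B
        have hg := hper.gcd hper3
        have hcop : (j * orderOf c).Coprime 3 := by
          refine Nat.Coprime.mul_left (by rcases hj with rfl | rfl <;> norm_num) ?_
          exact (S.copG.coprime_dvd_left (orderOf_dvd_natCard c)).coprime_dvd_right (by norm_num)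
        rw [hcop.gcd_eq_one] at hg
        exact h01 hg.symm
      have hn1 := hnot 1 (Or.inl rfl)
      have hn2 := hnot 2 (Or.inr rfl)
      simp only [Function.iterate_one, Function.iterate_succ, Function.comp, Function.iterate_zero, id] at hn1 hn2
      -- six members: the image of `v` vanishes
      have hne1 : ∀ {D E : Subgroup G}, D ≠ E → D.map S.ρ.toMonoidHom ≠ E.map S.ρ.toMonoidHom :=
        fun h e => h (Subgroup.map_injective S.ρ.injective e)
      obtain ⟨hc01, hc02, hc12⟩ : B' ≠ B'.map S.ρ.toMonoidHom ∧ B' ≠ (B'.map S.ρ.toMonoidHom).map S.ρ.toMonoidHom ∧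
          B'.map S.ρ.toMonoidHom ≠ (B'.map S.ρ.toMonoidHom).map S.ρ.toMonoidHom := by
        have hinj : Function.Injective (fun D : Subgroup G => D.map (MulAut.conj c).toMonoidHom) :=
          Subgroup.map_injective (MulAut.conj c).injective
        rw [hB', hconjρ, hconjρ]
        exact ⟨hinj.ne h01, hinj.ne h02, hinj.ne h12⟩
      have e1 : (B.map S.ρ.toMonoidHom).map (MulAut.conj c).toMonoidHom = B'.map S.ρ.toMonoidHom := (hconjρ B).symm
      have e2 : ((B.map S.ρ.toMonoidHom).map S.ρ.toMonoidHom).map (MulAut.conj c).toMonoidHom =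
          (B'.map S.ρ.toMonoidHom).map S.ρ.toMonoidHom := by rw [← hconjρ, ← hconjρ]
      rw [e1] at hc1 hcidx1 hcfix1
      rw [e2] at hc2 hcidx2 hcfix2
      have h := F.indep ![B, B.map S.ρ.toMonoidHom, (B.map S.ρ.toMonoidHom).map S.ρ.toMonoidHom, B',
          B'.map S.ρ.toMonoidHom, (B'.map S.ρ.toMonoidHom).map S.ρ.toMonoidHom]
        ![v⁻¹, (S.rv v)⁻¹, (S.rv (S.rv v))⁻¹, S.φ c v, S.φ c (S.rv v), S.φ c (S.rv (S.rv v))] Finset.univ
        (fun i _ => by
          fin_cases i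
          · exact ⟨hB, hidx, inv_mem hv⟩
          · exact ⟨hB1, hidx1, inv_mem (S.rv_mem hv)⟩
          · exact ⟨hB2, hidx2, inv_mem (S.rv_mem (S.rv_mem hv))⟩
          · exact ⟨hc0, hcidx0, hcfix0 v hv⟩
          · exact ⟨hc1, hcidx1, hcfix1 _ (S.rv_mem hv)⟩
          · exact ⟨hc2, hcidx2, hcfix2 _ (S.rv_mem (S.rv_mem hv))⟩)
        (by
          have k1 := hne1 hne
          have k2 := hne1 k1
          have k3 := hne1 hn1
          have k4 := hne1 hn2
          have k5 := hne1 k3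
          have k6 := hne1 k4
          rw [hrho3] at k4 k5
          rw [show (((B.map S.ρ.toMonoidHom).map S.ρ.toMonoidHom).map S.ρ.toMonoidHom).map S.ρ.toMonoidHom =
            B.map S.ρ.toMonoidHom by rw [hrho3]] at k6
          intro i _ j _ e
          fin_cases i <;> fin_cases j <;>
            first | rfl | exact absurd e (by assumption) | exact absurd e.symm (by assumption))
        (by
          rw [map_mul, map_mul] at hw
          simp [Fin.prod_univ_six]
          rw [mul_assoc, mul_assoc, ← mul_assoc (S.φ c v), hw, ← mul_inv, ← mul_inv, inv_mul_cancel])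
      exact hv1 (inv_eq_one.1 (h 0 (Finset.mem_univ _)))
    have hfixc : ∀ u ∈ Fix S.φ B, S.φ c u = u := by
      intro u hu
      obtain ⟨_, _, hcf⟩ := F.conj hA.normal c hB hidx
      have hm0 : S.φ c u * u⁻¹ ∈ Fix S.φ B := mul_mem (hcB ▸ hcf u hu) (inv_mem hu)
      have e1 : (B.map S.ρ.toMonoidHom).map (MulAut.conj c).toMonoidHom = B.map S.ρ.toMonoidHom := by
        rw [← hconjρ, ← hB', hcB]
      have hm1 : S.φ c (S.rv u) * (S.rv u)⁻¹ ∈ Fix S.φ (B.map S.ρ.toMonoidHom) :=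
        mul_mem (e1 ▸ hcfix1 _ (S.rv_mem hu)) (inv_mem (S.rv_mem hu))
      have e2 : ((B.map S.ρ.toMonoidHom).map S.ρ.toMonoidHom).map (MulAut.conj c).toMonoidHom =
          (B.map S.ρ.toMonoidHom).map S.ρ.toMonoidHom := by rw [← hconjρ, ← hconjρ, ← hB', hcB]
      have hm2 : S.φ c (S.rv (S.rv u)) * (S.rv (S.rv u))⁻¹ ∈ Fix S.φ ((B.map S.ρ.toMonoidHom).map S.ρ.toMonoidHom) :=
        mul_mem (e2 ▸ hcfix2 _ (S.rv_mem (S.rv_mem hu))) (inv_mem (S.rv_mem (S.rv_mem hu)))
      have h := F.indep_three ⟨hB, hidx, hm0⟩ ⟨hB1, hidx1, hm1⟩ ⟨hB2, hidx2, hm2⟩ h01 h02 h12 (by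
        have h1 := S.C_fix hc (S.orbit_fixed u)
        rw [map_mul, map_mul] at h1
        rw [← div_eq_mul_inv, ← div_eq_mul_inv, ← div_eq_mul_inv, div_mul_div_comm, div_mul_div_comm, h1, div_self'])
      exact mul_inv_eq_one.1 h.1
    by_contra hxB
    refine hv1 (F.hyper hB hidx (mul_mem hyA (inv_mem ha)) hxB hv ?_)
    have hau : S.φ a⁻¹ v ∈ Fix S.φ B := F.apply_mem hB (inv_mem ha) hv
    have hci : ∀ u ∈ Fix S.φ B, S.φ c⁻¹ u = u := fun u hu => inv_fix (hfixc u hu)
    rw [φ_mul, φ_mul, φ_mul, hci _ hau, ← φ_mul a, mul_inv_cancel, φ_one, hfixc v hv]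

end Setup

end CfsgLib.FpfS3
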