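import Cfsg.Agent.FpfS3.Basic

/-!
A group acting faithfully and irreducibly under a fixed-point-free `S₃` is abelian.
-/

set_option autoImplicit false

namespace CfsgLib.FpfS3

open scoped commutatorElement

/-- Restriction of an action to an invariant set, as permutations of it. -/
def restrictUnits {G V : Type*} [Group G] [CommGroup V] (φ : G →* MulAut V) (W : Subgroup V)
    (hW : ∀ g, ∀ u ∈ W, φ g u ∈ W) : G →* Equiv.Perm W where
  toFun g :=
    { toFun := fun u => ⟨φ g u, hW g u u.2⟩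
      invFun := fun u => ⟨φ g⁻¹ u, hW g⁻¹ u u.2⟩
      left_inv := fun u => Subtype.ext (show φ g⁻¹ (φ g (u : V)) = u by rw [← φ_mul, inv_mul_cancel, φ_one])
      right_inv := fun u => Subtype.ext (show φ g (φ g⁻¹ (u : V)) = u by rw [← φ_mul, mul_inv_cancel, φ_one]) }
  map_one' := Equiv.ext fun u => Subtype.ext (φ_one (u : V))
  map_mul' g h := Equiv.ext fun u => Subtype.ext (φ_mul g h (u : V))

theorem restrictUnits_eq {G V : Type*} [Group G] [CommGroup V] {φ : G →* MulAut V} {W : Subgroup V}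
    {hW : ∀ g, ∀ u ∈ W, φ g u ∈ W} {x y : G} :
    restrictUnits φ W hW x = restrictUnits φ W hW y ↔ ∀ u ∈ W, φ x u = φ y u := by
  constructor
  · intro e u hu
    exact congrArg Subtype.val (Equiv.congr_fun e ⟨u, hu⟩)
  · intro h
    exact Equiv.ext fun u => Subtype.ext (h u u.2)

namespace Setup

variable {G V : Type*} [Group G] [Finite G] [CommGroup V] [Finite V] (S : Setup G V)

theorem C_eq_bot {r : ℕ} {A : Subgroup G} (hA : S.Inv A) (F : Frame S.φ r A)
    (hA0 : ∀ a ∈ A, S.ρ a = a → a = 1) {c : G} (hc : S.ρ c = c) : c = 1 := by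
  classical
  haveI : Fintype A := Fintype.ofFinite _
  refine eq_one_of_forall S.inj fun v => ?_
  set u := S.φ c v * v⁻¹ with hu
  suffices h : u = 1 by rwa [hu, mul_inv_eq_one] at h
  refine F.coprime_pow_eq_one ?_
  have hterm : ∀ x : A, u * S.φ ((x : G)⁻¹ * S.ρ x) (S.rv u) * S.φ ((x : G)⁻¹ * S.ρ (S.ρ x)) (S.rv (S.rv u)) = 1 := by
    intro x
    have h := S.C_fix hc (S.orbit_fixed (S.φ (x : G) v))
    have hcc : ∀ (z : G) (w : V), z ∈ A → S.φ c (S.φ z w) = S.φ z (S.φ c w) := fun z w hz => by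
      rw [← φ_mul, ← φ_mul, S.C_centralizes hA F hc z hz]
    rw [S.compat_r, S.compat_r, map_mul, map_mul, hcc _ _ x.2, hcc _ _ (hA.hr _ x.2),
      hcc _ _ (hA.hr _ (hA.hr _ x.2))] at h
    have h1 : S.φ (x : G) u * S.φ (S.ρ x) (S.rv u) * S.φ (S.ρ (S.ρ x)) (S.rv (S.rv u)) = 1 := by
      have e1 : S.φ c (S.rv v) = S.rv (S.φ c v) := by rw [S.compat_r, hc]
      have e2 : S.φ c (S.rv (S.rv v)) = S.rv (S.rv (S.φ c v)) := by rw [S.compat_r, hc, S.compat_r, hc]
      rw [e1, e2] at h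
      rw [hu, map_mul (S.φ (x : G)), map_inv (S.φ (x : G)), map_mul S.rv, map_inv S.rv, map_mul S.rv, map_inv S.rv,
        map_mul (S.φ (S.ρ x)), map_inv (S.φ (S.ρ x)), map_mul (S.φ (S.ρ (S.ρ x))), map_inv (S.φ (S.ρ (S.ρ x))),
        ← div_eq_mul_inv, ← div_eq_mul_inv, ← div_eq_mul_inv, div_mul_div_comm, div_mul_div_comm, h, div_self']
    have h2 := congrArg (S.φ (x : G)⁻¹) h1
    rwa [map_mul (S.φ (x : G)⁻¹), map_mul (S.φ (x : G)⁻¹), map_one, ← φ_mul, ← φ_mul, ← φ_mul, inv_mul_cancel,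
      φ_one] at h2
  have hbij : ∀ f : G →* G, (∀ a ∈ A, f a ∈ A) → (∀ a ∈ A, f a = a → a = 1) → ∀ w : V,
      ∏ x : A, S.φ ((x : G)⁻¹ * f x) w = 1 := by
    intro f hf hf1 w
    refine F.norm (fun x : A => ⟨(x : G)⁻¹ * f x, mul_mem (inv_mem x.2) (hf x x.2)⟩) ?_ w
    refine Finite.injective_iff_bijective.1 fun x y e => ?_
    have e' : (x : G)⁻¹ * f x = (y : G)⁻¹ * f y := congrArg Subtype.val e
    have h1 : f ((y : G) * (x : G)⁻¹) = y * (x : G)⁻¹ := by
      rw [map_mul, map_inv, mul_inv_eq_iff_eq_mul, mul_assoc, e', mul_inv_cancel_left]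
    exact Subtype.ext (mul_inv_eq_one.1 (hf1 _ (mul_mem y.2 (inv_mem x.2)) h1)).symm
  have h := Finset.prod_congr rfl (fun x (_ : x ∈ (Finset.univ : Finset A)) => hterm x)
  have k1 : ∏ x : A, S.φ ((x : G)⁻¹ * S.ρ x) (S.rv u) = 1 := hbij S.ρ.toMonoidHom hA.hr hA0 _
  have k2 : ∏ x : A, S.φ ((x : G)⁻¹ * S.ρ (S.ρ x)) (S.rv (S.rv u)) = 1 :=
    hbij (S.ρ.toMonoidHom.comp S.ρ.toMonoidHom) (fun a ha => hA.hr _ (hA.hr a ha))
      (fun a ha e => hA0 a ha (by
        replace e : S.ρ (S.ρ a) = a := e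
        have := congrArg S.ρ e
        rw [S.r3] at this
        exact this.symm)) _
  rw [Finset.prod_mul_distrib, Finset.prod_mul_distrib, k1, k2, mul_one, mul_one, Finset.prod_const,
    Finset.prod_const_one, Finset.card_univ, ← Nat.card_eq_fintype_card] at h
  exact h

/-- A weight of a central subgroup without fixed points of `ρ` carries a reflection acting as inversion. -/
theorem reflection {r : ℕ} {A : Subgroup G} (hA : S.Inv A) (F : Frame S.φ r A)
    (hA0 : ∀ a ∈ A, S.ρ a = a → a = 1) {B : Subgroup G} (hB : B ≤ A) (hidx : B.relIndex A = r)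
    {v : V} (hv : v ∈ Fix S.φ B) (hv1 : v ≠ 1) :
    ∃ (T : MulAut G) (Tv : MulAut V), (∀ x, T (S.ρ x) = S.ρ (S.ρ (T x))) ∧
      (∀ g u, Tv (S.φ g u) = S.φ (T g) (Tv u)) ∧ ∀ u ∈ Fix S.φ B, Tv u = u⁻¹ := by
  have hA0' : ∀ z ∈ A, S.ρ z = z → z ∈ B := fun z hz hzρ => by rw [hA0 z hz hzρ]; exact one_mem B
  have htmem : ∀ {u : V} {D : Subgroup G}, u ∈ Fix S.φ D → S.tv u ∈ Fix S.φ (D.map S.t.toMonoidHom) := by
    rintro u D hu _ ⟨b, hb, rfl⟩
    change S.φ (S.t b) (S.tv u) = S.tv u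
    rw [← S.compat_t, hu b hb]
  obtain ⟨hT, hTidx⟩ := S.map_hyper hA hB hidx S.t hA.ht
  by_cases hinv : ∀ b ∈ B, S.ρ b ∈ B
  · exfalso
    obtain ⟨⟨v0, hv0B, hv0, hv01⟩, k, hk1, -, hk⟩ := S.exists_fixed_of_inv hA F hB hidx hinv hA0' hv hv1
    have htB : ∀ b ∈ B, S.t b ∈ B := by
      intro b hb
      by_contra hbB
      have h := htmem hv0B
      rw [S.tv_eq_inv hv0] at h
      exact hv01 (inv_eq_one.1 (F.hyper hB hidx (hA.ht b (hB hb)) hbB (inv_mem hv0B) (h _ ⟨b, hb, rfl⟩)))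
    obtain ⟨l, hl⟩ := F.scalar hB hidx S.t.toMonoidHom hA.ht htB
    replace hl : ∀ a ∈ A, S.t a * (a ^ l)⁻¹ ∈ B := hl
    have tr : ∀ {x y z : G}, x * y⁻¹ ∈ B → y * z⁻¹ ∈ B → x * z⁻¹ ∈ B := fun {x y z} h1 h2 => by
      have := mul_mem h1 h2; rwa [mul_assoc, inv_mul_cancel_left] at this
    have sy : ∀ {x y : G}, x * y⁻¹ ∈ B → y * x⁻¹ ∈ B := fun {x y} h => by
      have := inv_mem h; rwa [mul_inv_rev, inv_inv] at this
    have pw : ∀ {x y : G}, x ∈ A → y ∈ A → x * y⁻¹ ∈ B → ∀ n : ℕ, x ^ n * (y ^ n)⁻¹ ∈ B := fun {x y} hx hy h n => by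
      have := pow_mem h n; rwa [Commute.mul_pow (F.comm x hx _ (inv_mem hy)), inv_pow] at this
    obtain ⟨a, ha, haB⟩ : ∃ a ∈ A, a ∉ B := by
      refine SetLike.not_le_iff_exists.1 fun hle => ?_
      rw [Subgroup.relIndex_eq_one.2 hle] at hidx
      exact F.prime.ne_one hidx.symm
    apply haB
    -- `t ρ t = ρ²` forces the multiplier of `ρ` to be trivial
    have hmapρ : ∀ {x y : G}, x * y⁻¹ ∈ B → S.ρ x * (S.ρ y)⁻¹ ∈ B := fun {x y} h => by
      have := hinv _ h; rwa [map_mul, map_inv] at this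
    have hk2 : ∀ x ∈ A, S.ρ (S.ρ x) * (x ^ (k * k))⁻¹ ∈ B := fun x hx => by
      rw [pow_mul]
      exact tr (hk _ (hA.hr x hx)) (pw (hA.hr x hx) (pow_mem hx k) (hk x hx) k)
    have h1 : S.t (S.ρ a) * (a ^ (k * l))⁻¹ ∈ B := by
      rw [pow_mul]
      exact tr (hl _ (hA.hr a ha)) (pw (hA.hr a ha) (pow_mem ha k) (hk a ha) l)
    have h2 : S.t (S.ρ a) * (a ^ (l * (k * k)))⁻¹ ∈ B := by
      rw [S.tr, pow_mul]
      exact tr (hmapρ (hmapρ (hl a ha))) (hk2 _ (pow_mem ha l))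
    have h3 := pw (pow_mem ha _) (pow_mem ha _) (tr (sy h1) h2) l
    have hll : ∀ x ∈ A, x * (x ^ (l * l))⁻¹ ∈ B := fun x hx => by
      have := hl _ (hA.ht x hx)
      rw [S.t2] at this
      rw [pow_mul]
      exact tr this (pw (hA.ht x hx) (pow_mem hx l) (hl x hx) l)
    have h4 : a ^ k * (a ^ (k * k))⁻¹ ∈ B := by
      have e1 := hll (a ^ k) (pow_mem ha k)
      have e2 := hll (a ^ (k * k)) (pow_mem ha _)
      rw [← pow_mul] at e1 e2
      rw [← pow_mul, ← pow_mul, show k * l * l = k * (l * l) by ring,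
        show l * (k * k) * l = k * k * (l * l) by ring] at h3
      exact tr e1 (tr h3 (sy e2))
    have h5 := pw (pow_mem ha _) (pow_mem ha _) h4 (k * k)
    have hk3 : ∀ x ∈ A, x * (x ^ (k * k * k))⁻¹ ∈ B := fun x hx => by
      have := hk _ (hA.hr _ (hA.hr x hx))
      rw [S.r3] at this
      rw [pow_mul]
      exact tr this (pw (hA.hr _ (hA.hr x hx)) (pow_mem hx _) (hk2 x hx) k)
    rw [← pow_mul, ← pow_mul, show k * (k * k) = k * k * k by ring, show k * k * (k * k) = k * (k * k * k) by ring] at h5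
    have e3 := hk3 (a ^ k) (pow_mem ha k)
    rw [← pow_mul] at e3
    have h6 : a * (a ^ k)⁻¹ ∈ B := tr (hk3 a ha) (tr h5 (sy e3))
    have hr1 : a ^ (r - 1) = a⁻¹ := by
      rw [eq_inv_iff_mul_eq_one, ← pow_succ, Nat.sub_add_cancel F.prime.pos, F.exp a ha]
    obtain ⟨j, hj⟩ := exists_pow_eq_self_of_coprime (x := a) (n := k + (r - 1))
      (((F.prime.coprime_iff_not_dvd.2 hk1).symm).coprime_dvd_right (orderOf_dvd_of_pow_eq_one (F.exp a ha)))
    refine hj ▸ pow_mem ?_ j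
    rw [pow_add, hr1]
    exact sy h6
  obtain ⟨h01, h02, h12⟩ := S.orbit_ne hinv
  obtain ⟨hB1, hidx1⟩ := S.map_hyper hA hB hidx S.ρ hA.hr
  obtain ⟨hB2, hidx2⟩ := S.map_hyper hA hB1 hidx1 S.ρ hA.hr
  -- `t` maps the weight to a member of its orbit
  have horb : B.map S.t.toMonoidHom = B ∨ B.map S.t.toMonoidHom = B.map S.ρ.toMonoidHom ∨
      B.map S.t.toMonoidHom = (B.map S.ρ.toMonoidHom).map S.ρ.toMonoidHom := by
    by_contra hno
    push Not at hno
    obtain ⟨n0, n1, n2⟩ := hno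
    obtain ⟨hT1, hTidx1⟩ := S.map_hyper hA hT hTidx S.ρ hA.hr
    obtain ⟨hT2, hTidx2⟩ := S.map_hyper hA hT1 hTidx1 S.ρ hA.hr
    have hrho3 : ∀ D : Subgroup G, ((D.map S.ρ.toMonoidHom).map S.ρ.toMonoidHom).map S.ρ.toMonoidHom = D := by
      intro D
      rw [Subgroup.map_map, Subgroup.map_map]
      ext x
      simp only [Subgroup.mem_map]
      exact ⟨fun ⟨y, hy, e⟩ => by rw [← e]; change S.ρ (S.ρ (S.ρ y)) ∈ D; rwa [S.r3], fun hx => ⟨x, hx, S.r3 x⟩⟩
    have hne1 : ∀ {D E : Subgroup G}, D ≠ E → D.map S.ρ.toMonoidHom ≠ E.map S.ρ.toMonoidHom :=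
      fun h e => h (Subgroup.map_injective S.ρ.injective e)
    have hTn : ¬ ∀ b ∈ B.map S.t.toMonoidHom, S.ρ b ∈ B.map S.t.toMonoidHom := by
      intro h
      refine hinv fun b hb => ?_
      have := h _ (h _ ⟨b, hb, rfl⟩)
      obtain ⟨y, hy, e⟩ := this
      have : y = S.ρ b := by
        apply S.t.injective
        rw [show S.t y = S.ρ (S.ρ (S.t b)) from e, S.tr]
      rwa [← this]
    obtain ⟨c01, c02, c12⟩ := S.orbit_ne hTn
    have hs : S.rv (S.tv v * S.rv (S.tv v) * S.rv (S.rv (S.tv v))) =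
        S.tv v * S.rv (S.tv v) * S.rv (S.rv (S.tv v)) := S.orbit_fixed _
    have h := F.indep ![B, B.map S.ρ.toMonoidHom, (B.map S.ρ.toMonoidHom).map S.ρ.toMonoidHom, B.map S.t.toMonoidHom,
        (B.map S.t.toMonoidHom).map S.ρ.toMonoidHom, ((B.map S.t.toMonoidHom).map S.ρ.toMonoidHom).map S.ρ.toMonoidHom]
      ![v, S.rv v, S.rv (S.rv v), S.tv v, S.rv (S.tv v), S.rv (S.rv (S.tv v))] Finset.univ
      (fun i _ => by
        fin_cases i
        · exact ⟨hB, hidx, hv⟩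
        · exact ⟨hB1, hidx1, S.rv_mem hv⟩
        · exact ⟨hB2, hidx2, S.rv_mem (S.rv_mem hv)⟩
        · exact ⟨hT, hTidx, htmem hv⟩
        · exact ⟨hT1, hTidx1, S.rv_mem (htmem hv)⟩
        · exact ⟨hT2, hTidx2, S.rv_mem (S.rv_mem (htmem hv))⟩)
      (by
        have k1 := hne1 n0
        have k2 := hne1 k1
        have k3 := hne1 n1
        have k4 := hne1 n2
        have k5 := hne1 k3
        have k6 := hne1 k4
        rw [hrho3] at k4 k5
        rw [show (((B.map S.ρ.toMonoidHom).map S.ρ.toMonoidHom).map S.ρ.toMonoidHom).map S.ρ.toMonoidHom =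
          B.map S.ρ.toMonoidHom by rw [hrho3]] at k6
        intro i _ j _ e
        fin_cases i <;> fin_cases j <;>
          first | rfl | exact absurd e (by assumption) | exact absurd e.symm (by assumption))
      (by
        simp [Fin.prod_univ_six]
        have hp : v * S.rv v * S.rv (S.rv v) * (S.tv v * S.rv (S.tv v) * S.rv (S.rv (S.tv v))) = 1 := by
          refine S.fpfV _ ?_ ?_
          · rw [map_mul, S.orbit_fixed, hs]
          · simp only [map_mul, S.tv2, S.tvr, S.tvr', S.rv3]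
            simp [mul_comm, mul_left_comm, mul_assoc]
        simpa [mul_assoc] using hp)
    exact hv1 (h 0 (Finset.mem_univ _))
  obtain ⟨T, Tv, hTr, hTc, hT2v, hTB, hTt⟩ : ∃ (T : MulAut G) (Tv : MulAut V),
      (∀ x, T (S.ρ x) = S.ρ (S.ρ (T x))) ∧ (∀ g u, Tv (S.φ g u) = S.φ (T g) (Tv u)) ∧
      ((∀ u, Tv (Tv u) = u) ∧ ∀ u, Tv (S.rv u) = S.rv (S.rv (Tv u))) ∧ B.map T.toMonoidHom = B ∧
      ∀ w, S.rv w = w → Tv w = w → S.tv w = w := by
    have hcancel : ∀ D : Subgroup G, ((D.map S.ρ.toMonoidHom).map S.ρ.toMonoidHom).map S.ρ.toMonoidHom = D := by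
      intro D
      rw [Subgroup.map_map, Subgroup.map_map]
      ext x
      simp only [Subgroup.mem_map]
      exact ⟨fun ⟨y, hy, e⟩ => by rw [← e]; change S.ρ (S.ρ (S.ρ y)) ∈ D; rwa [S.r3], fun hx => ⟨x, hx, S.r3 x⟩⟩
    rcases horb with h | h | h
    · exact ⟨S.t, S.tv, S.tr, S.compat_t, ⟨S.tv2, S.tvr⟩, h, fun w _ hw => hw⟩
    · refine ⟨(S.t.trans S.ρ).trans S.ρ, (S.tv.trans S.rv).trans S.rv, fun x => ?_, fun g u => ?_,
        ⟨fun u => ?_, fun u => ?_⟩, ?_, fun w hw hw' => ?_⟩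
      · simp only [MulEquiv.trans_apply, S.tr]
      · simp only [MulEquiv.trans_apply, S.compat_t, S.compat_r]
      · simp only [MulEquiv.trans_apply, S.tvr', S.tv2, S.rv3]
      · simp only [MulEquiv.trans_apply, S.tvr]
      · rw [show ((S.t.trans S.ρ).trans S.ρ).toMonoidHom =
            S.ρ.toMonoidHom.comp (S.ρ.toMonoidHom.comp S.t.toMonoidHom) from rfl,
          ← Subgroup.map_map, ← Subgroup.map_map, h, hcancel]
      · have := congrArg S.rv hw'
        simp only [MulEquiv.trans_apply, S.rv3, hw] at this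
        exact this
    · refine ⟨S.t.trans S.ρ, S.tv.trans S.rv, fun x => ?_, fun g u => ?_, ⟨fun u => ?_, fun u => ?_⟩, ?_,
        fun w hw hw' => ?_⟩
      · simp only [MulEquiv.trans_apply, S.tr]
      · simp only [MulEquiv.trans_apply, S.compat_t, S.compat_r]
      · simp only [MulEquiv.trans_apply, S.tvr, S.tv2, S.rv3]
      · simp only [MulEquiv.trans_apply, S.tvr]
      · rw [show (S.t.trans S.ρ).toMonoidHom = S.ρ.toMonoidHom.comp S.t.toMonoidHom from rfl,
          ← Subgroup.map_map, h, hcancel]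
      · have := congrArg S.rv (congrArg S.rv hw')
        simp only [MulEquiv.trans_apply, S.rv3, hw] at this
        exact this
  refine ⟨T, Tv, hTr, hTc, fun u hu => eq_inv_of_mul_eq_one_right ?_⟩
  have hTu : Tv u ∈ Fix S.φ B := by
    intro b hb
    obtain ⟨b', hb', rfl⟩ : b ∈ B.map T.toMonoidHom := hTB.symm ▸ hb
    change S.φ (T b') (Tv u) = Tv u
    rw [← hTc, hu b' hb']
  have hp : u * Tv u ∈ Fix S.φ B := mul_mem hu hTu
  have hw : (u * Tv u) * S.rv (u * Tv u) * S.rv (S.rv (u * Tv u)) = 1 := by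
    refine S.fpfV _ (S.orbit_fixed _) (hTt _ (S.orbit_fixed _) ?_)
    simp only [map_mul, hT2v.1, hT2v.2, S.rv3]
    simp [mul_comm, mul_left_comm, mul_assoc]
  exact (F.indep_three ⟨hB, hidx, hp⟩ ⟨hB1, hidx1, S.rv_mem hp⟩ ⟨hB2, hidx2, S.rv_mem (S.rv_mem hp)⟩
    h01 h02 h12 hw).1

/-- If `ρ` has no fixed point on `G`, then `G` is abelian. -/
theorem comm_of_fpf (hC : ∀ c, S.ρ c = c → c = 1) {q : ℕ} [Fact q.Prime] (hVq : ∀ v : V, v ^ q = 1)
    [Nontrivial V] : ∀ g h : G, g * h = h * g := by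
  classical
  by_cases htriv : ∀ x : G, x = 1
  · intro g h; rw [htriv g, htriv h]
  have hρ : orderOf S.ρ = 3 := by
    haveI : Fact (Nat.Prime 3) := ⟨Nat.prime_three⟩
    refine orderOf_eq_prime ?_ fun e => htriv fun x => hC x (by rw [e]; rfl)
    exact MulEquiv.ext fun x => S.r3 x
  haveI hnil : Group.IsNilpotent G := Cfsg.Agent.S0033.result S.ρ (fun x hx => hC x hx) 3 Nat.prime_three hρ
  have hrel : ∀ h : G, h * S.ρ h * S.ρ (S.ρ h) = 1 := by
    intro h
    obtain ⟨x, -, rfl⟩ := CfsgLib.FpfFour.exists_inv_mul_eq S.ρ ⊤ (fun x _ => Subgroup.mem_top _)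
      (fun x _ => hC x) (Subgroup.mem_top h)
    rw [map_mul, map_mul, map_inv, map_inv, S.r3]
    group
  -- elements of the second centre are central
  suffices key : ∀ g : G, (∀ h, ⁅g, h⁆ ∈ Subgroup.center G) → g ∈ Subgroup.center G by
    have htop : Subgroup.center G = ⊤ := by
      by_contra hne
      haveI : Nontrivial (G ⧸ Subgroup.center G) :=
        QuotientGroup.nontrivial_iff.2 hne
      obtain ⟨z, hz⟩ := Subgroup.ne_bot_iff_exists_ne_one.1
        (Group.IsNilpotent.center_ne_bot _ :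
          Subgroup.center (G ⧸ Subgroup.center G) ≠ ⊥)
      obtain ⟨g, hg⟩ := QuotientGroup.mk_surjective (z : G ⧸ Subgroup.center G)
      refine hz (Subtype.ext ?_)
      rw [← hg]
      refine (QuotientGroup.eq_one_iff g).2 (key g fun h => ?_)
      rw [← QuotientGroup.eq_one_iff]
      change QuotientGroup.mk' (Subgroup.center G) ⁅g, h⁆ = 1
      rw [map_commutatorElement, commutatorElement_eq_one_iff_mul_comm]
      have := Subgroup.mem_center_iff.1 z.2 (QuotientGroup.mk' (Subgroup.center G) h)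
      rw [← hg] at this
      exact this.symm
    intro g h
    exact (Subgroup.mem_center_iff.1 (htop ▸ Subgroup.mem_top g) h).symm
  -- the exponent-`r` part of the centre
  haveI : Nontrivial G := by
    obtain ⟨x, hx⟩ := not_forall.1 htriv
    exact ⟨x, 1, hx⟩
  obtain ⟨r, hr, hrd⟩ := Nat.exists_prime_and_dvd (n := Nat.card (Subgroup.center G)) (fun e => by
    have := Group.IsNilpotent.center_ne_bot G
    exact this (Subgroup.eq_bot_of_card_eq _ e))
  haveI := Fact.mk hr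
  let A : Subgroup G :=
    { carrier := {x | x ∈ Subgroup.center G ∧ x ^ r = 1}
      one_mem' := ⟨one_mem _, one_pow r⟩
      mul_mem' := fun {a b} ha hb => ⟨mul_mem ha.1 hb.1, by
        rw [Commute.mul_pow (Subgroup.mem_center_iff.1 hb.1 a), ha.2, hb.2, mul_one]⟩
      inv_mem' := fun {a} ha => ⟨inv_mem ha.1, by rw [inv_pow, ha.2, inv_one]⟩ }
  have hAc : ∀ a ∈ A, ∀ g, g * a = a * g := fun a ha g => Subgroup.mem_center_iff.1 ha.1 g
  have hmapc : ∀ (f : MulAut G), ∀ a ∈ A, f a ∈ A := fun f a ha => by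
    refine ⟨?_, by rw [← map_pow, ha.2, map_one]⟩
    rw [Subgroup.mem_center_iff]
    intro g
    obtain ⟨g', rfl⟩ := f.surjective g
    rw [← map_mul, ← map_mul, Subgroup.mem_center_iff.1 ha.1]
  have hA : S.Inv A := ⟨⟨fun a ha g => by rwa [hAc a ha g, mul_inv_cancel_right]⟩, hmapc S.ρ, hmapc S.t⟩
  have hA1 : A ≠ ⊥ := by
    obtain ⟨x, hx⟩ := exists_prime_orderOf_dvd_card' (G := Subgroup.center G) r hrd
    intro hb
    have hmem : (x : G) ∈ A := ⟨x.2, by rw [← SubgroupClass.coe_pow, ← hx, pow_orderOf_eq_one]; rfl⟩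
    rw [hb, Subgroup.mem_bot] at hmem
    exact hr.ne_one (by rw [← hx, orderOf_eq_one_iff]; exact Subtype.ext hmem)
  have F := S.frame hA hr (fun a ha => ha.2) (fun a ha b hb => (hAc b hb a)) hA1 hVq
  intro g hg
  rw [Subgroup.mem_center_iff]
  intro h
  rw [eq_comm, ← commutatorElement_eq_one_iff_mul_comm]
  suffices hfix : Fix S.φ (Subgroup.zpowers ⁅g, h⁆) = ⊤ by
    exact eq_one_of_forall S.inj fun v => (hfix ▸ Subgroup.mem_top v : v ∈ Fix S.φ _) _ (Subgroup.mem_zpowers _)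
  refine F.span fun B hB hidx v hv => ?_
  rcases eq_or_ne v 1 with rfl | hv1
  · exact one_mem _
  obtain ⟨T, Tv, hTr, hTc, hTi⟩ := S.reflection hA F (fun a _ => hC a) hB hidx hv hv1
  set W := Fix S.φ B with hWdef
  have hW : ∀ x, ∀ u ∈ W, S.φ x u ∈ W := fun x u hu b hb => by
    rw [← φ_mul, ← hAc b (hB hb) x, φ_mul, hu b hb]
  set π := restrictUnits S.φ W hW with hπ
  have hπT : ∀ x, π (T x) = π x := by
    intro x
    rw [hπ, restrictUnits_eq]
    intro u hu
    have h1 := hTi _ (hW x u hu)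
    rw [hTc, hTi u hu, map_inv, inv_inj] at h1
    exact h1
  have hTrr : ∀ x, T (S.ρ (S.ρ x)) = S.ρ (T x) := fun x => by rw [hTr, hTr, S.r3]
  -- bilinearity
  have hgρ : ∀ x : G, (∀ y : G, ⁅x, y⁆ ∈ Subgroup.center G) → ∀ y : G, ⁅S.ρ x, y⁆ ∈ Subgroup.center G := by
    intro x hx y
    obtain ⟨y', rfl⟩ := S.ρ.surjective y
    rw [show ⁅S.ρ x, S.ρ y'⁆ = S.ρ ⁅x, y'⁆ from (map_commutatorElement S.ρ.toMonoidHom x y').symm,
      Subgroup.mem_center_iff]
    intro z
    obtain ⟨z', rfl⟩ := S.ρ.surjective z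
    rw [← map_mul, ← map_mul, Subgroup.mem_center_iff.1 (hx y')]
  have hmulr : ∀ x : G, (∀ y : G, ⁅x, y⁆ ∈ Subgroup.center G) → ∀ a b : G, ⁅x, a * b⁆ = ⁅x, a⁆ * ⁅x, b⁆ := by
    intro x hx a b
    have : ⁅x, a * b⁆ = ⁅x, a⁆ * (a * ⁅x, b⁆ * a⁻¹) := by simp only [commutatorElement_def]; group
    rw [this, Subgroup.mem_center_iff.1 (hx b) a, mul_inv_cancel_right]
  have hinvr : ∀ x : G, (∀ y : G, ⁅x, y⁆ ∈ Subgroup.center G) → ∀ a : G, ⁅x, a⁻¹⁆ = (⁅x, a⁆)⁻¹ := by
    intro x hx a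
    refine eq_inv_of_mul_eq_one_right ?_
    rw [← hmulr x hx, mul_inv_cancel, commutatorElement_one_right]
  have hmull : ∀ x x' : G, (∀ y : G, ⁅x', y⁆ ∈ Subgroup.center G) → ∀ a : G, ⁅x * x', a⁆ = ⁅x, a⁆ * ⁅x', a⁆ := by
    intro x x' hx' a
    have : ⁅x * x', a⁆ = x * ⁅x', a⁆ * x⁻¹ * ⁅x, a⁆ := by simp only [commutatorElement_def]; group
    rw [this, Subgroup.mem_center_iff.1 (hx' a) x, mul_inv_cancel_right]
    exact (Subgroup.mem_center_iff.1 (hx' a) _).symm
  have hinvl : ∀ x : G, (∀ y : G, ⁅x, y⁆ ∈ Subgroup.center G) → ∀ a : G, ⁅x⁻¹, a⁆ = (⁅x, a⁆)⁻¹ := by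
    intro x hx a
    refine eq_inv_of_mul_eq_one_left ?_
    rw [← hmull _ _ hx, inv_mul_cancel, commutatorElement_one_left]
  have hρ2 : ∀ x : G, S.ρ (S.ρ x) = (x * S.ρ x)⁻¹ := fun x => eq_inv_of_mul_eq_one_right (hrel x)
  have hρc : ∀ x y : G, S.ρ ⁅x, y⁆ = ⁅S.ρ x, S.ρ y⁆ := fun x y => map_commutatorElement S.ρ.toMonoidHom x y
  have e1 : ∀ x : G, (∀ y : G, ⁅x, y⁆ ∈ Subgroup.center G) → ∀ y : G, ⁅x, S.ρ y⁆ = ⁅S.ρ x, y⁆ := by
    intro x hx y
    have hx' := hgρ x hx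
    refine mul_inv_eq_one.1 (hC _ ?_)
    rw [map_mul, map_inv, hρc, hρc, hρ2 y, hinvr _ hx', hmulr _ hx', hρ2 x]
    have hxx : ∀ z, ⁅x * S.ρ x, z⁆ ∈ Subgroup.center G := fun z => by
      rw [hmull _ _ hx']; exact mul_mem (hx z) (hx' z)
    rw [hinvl _ hxx, inv_inv, hmull _ _ hx']
    have c1 := Subgroup.mem_center_iff.1 (hx' (S.ρ y))
    rw [mul_inv_rev]
    calc (⁅S.ρ x, S.ρ y⁆)⁻¹ * (⁅S.ρ x, y⁆)⁻¹ * (⁅x, S.ρ y⁆ * ⁅S.ρ x, S.ρ y⁆)
        = (⁅S.ρ x, S.ρ y⁆)⁻¹ * ((⁅S.ρ x, y⁆)⁻¹ * ⁅x, S.ρ y⁆) * ⁅S.ρ x, S.ρ y⁆ := by group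
      _ = (⁅S.ρ x, y⁆)⁻¹ * ⁅x, S.ρ y⁆ := by rw [mul_assoc, c1, inv_mul_cancel_left]
      _ = _ := by rw [Subgroup.mem_center_iff.1 (hx (S.ρ y))]
  have hTc' : ∀ x y : G, T ⁅x, y⁆ = ⁅T x, T y⁆ := fun x y => map_commutatorElement T.toMonoidHom x y
  have hflip : ∀ x : G, (∀ y : G, ⁅x, y⁆ ∈ Subgroup.center G) → ∀ y : G, π ⁅x, S.ρ y⁆ = π ⁅x, S.ρ (S.ρ y)⁆ := by
    intro x hx y
    have hTx : ∀ y, ⁅T x, y⁆ ∈ Subgroup.center G := by
      intro y
      obtain ⟨y', rfl⟩ := T.surjective y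
      rw [← hTc', Subgroup.mem_center_iff]
      intro z
      obtain ⟨z', rfl⟩ := T.surjective z
      rw [← map_mul, ← map_mul, Subgroup.mem_center_iff.1 (hx y')]
    calc π ⁅x, S.ρ y⁆ = π ⁅S.ρ x, y⁆ := by rw [e1 x hx y]
      _ = π ⁅T (S.ρ x), y⁆ := by simp only [map_commutatorElement, hπT]
      _ = π ⁅T x, S.ρ (S.ρ y)⁆ := by rw [hTr, ← e1 _ (hgρ _ hTx), ← e1 _ hTx]
      _ = π ⁅x, S.ρ (S.ρ y)⁆ := by simp only [map_commutatorElement, hπT]
  have hgr := hgρ g hg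
  have hP1 := hflip g hg h
  have hP0 : π ⁅g, h⁆ = π ⁅g, S.ρ h⁆ := by
    have := hflip _ hgr h
    rwa [← e1 g hg, ← e1 g hg, S.r3, ← hP1, eq_comm] at this
  have hsum : π ⁅g, h⁆ * π ⁅g, S.ρ h⁆ * π ⁅g, S.ρ (S.ρ h)⁆ = 1 := by
    rw [← map_mul, ← map_mul, ← hmulr _ hg, ← hmulr _ hg, hrel, commutatorElement_one_right, map_one]
  rw [← hP1, ← hP0] at hsum
  have h3 : π (⁅g, h⁆ ^ 3) = 1 := by
    rw [map_pow, pow_succ, pow_two]; exact hsum
  have hker : ⁅g, h⁆ ∈ π.ker := mem_of_cube S.copG (K := π.ker) h3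
  intro b hb
  have h4 : π b = 1 := MonoidHom.mem_ker.1 ((Subgroup.zpowers_le.2 hker) hb)
  rw [← map_one π, hπ, restrictUnits_eq] at h4
  rw [h4 v hv, φ_one]

/-- In the presence of fixed points of `ρ`, an elementary abelian invariant normal subgroup is fixed by `ρ`. -/
theorem frame_fixed {r : ℕ} {A : Subgroup G} (hA : S.Inv A) (F : Frame S.φ r A) {c₀ : G} (hc₀ : S.ρ c₀ = c₀)
    (hc₀1 : c₀ ≠ 1) : ∀ a ∈ A, S.ρ a = a := by
  obtain ⟨a, ha, haρ, ha1⟩ : ∃ a ∈ A, S.ρ a = a ∧ a ≠ 1 := by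
    by_contra h
    push Not at h
    exact hc₀1 (S.C_eq_bot hA F h hc₀)
  haveI := Fact.mk F.prime
  obtain ⟨B, hB, hidx, haB, v, hv, hv1⟩ : ∃ B ≤ A, B.relIndex A = r ∧ a ∉ B ∧ ∃ v ∈ Fix S.φ B, v ≠ 1 := by
    by_contra hno
    push Not at hno
    refine ha1 (eq_one_of_forall S.inj ?_)
    have htop := F.span (W := Fix S.φ (Subgroup.zpowers a)) fun B hB hidx v hv => ?_
    · exact fun v => (htop ▸ Subgroup.mem_top v : v ∈ Fix S.φ _) a (Subgroup.mem_zpowers a)
    by_cases haB : a ∈ B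
    · exact fun b hb => hv b (Subgroup.zpowers_le.2 haB hb)
    · rw [hno B hB hidx haB v hv]; exact one_mem _
  have hBr : ∀ b ∈ B, S.ρ b ∈ B := by
    by_contra hn
    exact haB (S.fixed_mem_of_not_inv hA F hB hidx hn hv hv1 ha haρ)
  have hid := S.rho_id_of_fixed hA F hB hidx hBr ha haρ haB
  have hBt : ∀ b ∈ B, S.t b ∈ B := by
    intro b hb
    have hbA := hB hb
    have htA := hA.ht b hbA
    obtain ⟨-, hn1⟩ := S.n_fixed hA F hbA
    have hnB : b * S.ρ b * S.ρ (S.ρ b) ∈ B := mul_mem (mul_mem hb (hBr b hb)) (hBr _ (hBr b hb))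
    have htn := S.t_eq_inv hn1
    rw [map_mul, map_mul, S.tr, S.tr'] at htn
    refine mem_of_cube S.copG ?_
    have h1 := hid _ htA
    have h2 := hid _ (hA.hr _ htA)
    have e := S.cube_identity F htA (hA.hr _ (hA.hr _ htA)) (hA.hr _ htA)
    rw [htn] at e
    have h3 : S.ρ (S.ρ (S.t b)) * (S.t b)⁻¹ ∈ B := by
      have := mul_mem h2 h1; rwa [mul_assoc, inv_mul_cancel_left] at this
    have hT : (S.ρ (S.t b) * (S.ρ (S.ρ (S.t b)))⁻¹) *
        ((S.ρ (S.ρ (S.t b)) * (S.t b)⁻¹) * (S.ρ (S.ρ (S.t b)) * (S.t b)⁻¹)) ∈ B := by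
      refine mul_mem ?_ (mul_mem h3 h3)
      have := inv_mem h2
      rwa [mul_inv_rev, inv_inv] at this
    have := mul_mem (inv_mem hT) (inv_mem hnB)
    rw [← e, mul_inv_rev, inv_inv, mul_assoc, inv_mul_cancel, mul_one] at this
    exact this
  have huniq : ∀ g : G, (∀ b ∈ B.map (MulAut.conj g).toMonoidHom, S.ρ b ∈ B.map (MulAut.conj g).toMonoidHom) →
      B.map (MulAut.conj g).toMonoidHom = B := by
    intro g hg
    -- the `ρ`-invariant coset `g N(B)` contains a fixed point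
    set L := Subgroup.normalizer (B : Set G) with hL
    have hmapB := map_eq_of_le S.ρ hBr
    have hmapD := map_eq_of_le S.ρ hg
    have hcoset : ∀ x : G, g⁻¹ * x ∈ L → g⁻¹ * S.ρ x ∈ L := by
      intro x hx
      have hxB : B.map (MulAut.conj x).toMonoidHom = B.map (MulAut.conj g).toMonoidHom := by
        rw [hL, Subgroup.mem_normalizer_iff_map_conj_eq] at hx
        conv_rhs => rw [← hx]
        rw [Subgroup.map_map]
        congr 1
        ext y
        simp [mul_assoc]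
      have h1 : B.map (MulAut.conj (S.ρ x)).toMonoidHom = B.map (MulAut.conj g).toMonoidHom := by
        conv_lhs => rw [← hmapB]
        conv_rhs => rw [← hmapD, ← hxB]
        rw [Subgroup.map_map, Subgroup.map_map]
        congr 1
        ext y
        change S.ρ x * S.ρ y * (S.ρ x)⁻¹ = S.ρ (x * y * x⁻¹)
        rw [map_mul, map_mul, map_inv]
      rw [hL, Subgroup.mem_normalizer_iff_map_conj_eq]
      change B.map (MulAut.conj (g⁻¹ * S.ρ x)).toMonoidHom = B
      rw [show (MulAut.conj (g⁻¹ * S.ρ x)).toMonoidHom =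
          (MulAut.conj g⁻¹).toMonoidHom.comp (MulAut.conj (S.ρ x)).toMonoidHom from by ext; simp [mul_assoc],
        ← Subgroup.map_map, h1, Subgroup.map_map,
        show (MulAut.conj g⁻¹).toMonoidHom.comp (MulAut.conj g).toMonoidHom = MonoidHom.id G from by
          ext y; simp [mul_assoc]]
      exact Subgroup.map_id B
    classical
    let α := {x : G // g⁻¹ * x ∈ L}
    haveI : Fintype α := Fintype.ofFinite _
    haveI : Fact (Nat.Prime 3) := ⟨Nat.prime_three⟩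
    let σ : Equiv.Perm α :=
      ⟨fun x => ⟨S.ρ x.1, hcoset _ x.2⟩, fun x => ⟨S.ρ (S.ρ x.1), hcoset _ (hcoset _ x.2)⟩,
        fun x => Subtype.ext (S.r3 x.1), fun x => Subtype.ext (S.r3 x.1)⟩
    have hcard : ¬ 3 ∣ Fintype.card α := by
      rw [← Nat.card_eq_fintype_card, Nat.card_congr (show α ≃ L from
        ⟨fun x => ⟨g⁻¹ * x.1, x.2⟩, fun l => ⟨g * l.1, by rw [inv_mul_cancel_left]; exact l.2⟩,
          fun x => Subtype.ext (mul_inv_cancel_left g x.1), fun l => Subtype.ext (inv_mul_cancel_left g l.1)⟩)]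
      intro hd
      have := Nat.dvd_gcd (hd.trans (Subgroup.card_subgroup_dvd_card L)) (show 3 ∣ 6 by norm_num)
      rw [S.copG.gcd_eq_one] at this
      norm_num at this
    obtain ⟨⟨c, hcL⟩, hc⟩ := Equiv.Perm.exists_fixed_point_of_prime (p := 3) (n := 1) hcard (σ := σ)
      (Equiv.ext fun x => Subtype.ext (S.r3 x.1))
    replace hc : S.ρ c = c := congrArg Subtype.val hc
    have h1 : B.map (MulAut.conj c).toMonoidHom = B.map (MulAut.conj g).toMonoidHom := by
      rw [hL, Subgroup.mem_normalizer_iff_map_conj_eq] at hcL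
      conv_rhs => rw [← hcL]
      rw [Subgroup.map_map]
      congr 1
      ext y
      simp [mul_assoc]
    rw [← h1]
    refine map_eq_of_le (MulAut.conj c) fun b hb => ?_
    change c * b * c⁻¹ ∈ B
    rwa [S.C_centralizes hA F hc b (hB hb), mul_inv_cancel_right]
  have hcont : ∀ g : G, B.map (MulAut.conj g).toMonoidHom ≠ B → ∀ z ∈ A, S.ρ z = z →
      z ∈ B.map (MulAut.conj g).toMonoidHom := by
    intro g hgne z hz hzρ
    obtain ⟨hDle, hDidx, hDfix⟩ := F.conj hA.normal g hB hidx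
    exact S.fixed_mem_of_not_inv hA F hDle hDidx (fun h => hgne (huniq g h)) (hDfix v hv)
      (fun e => hv1 ((S.φ g).map_eq_one_iff.1 e)) hz hzρ
  have hBn : B.Normal := by
    suffices h : ∀ g : G, B.map (MulAut.conj g).toMonoidHom = B from ⟨fun x hx g => h g ▸ ⟨x, hx, rfl⟩⟩
    intro g
    by_contra hgB
    set D := B.map (MulAut.conj g).toMonoidHom with hD
    obtain ⟨hDle, hDidx, -⟩ := F.conj hA.normal g hB hidx
    set b := g * a * g⁻¹ with hb
    have hbA : b ∈ A := hA.normal.conj_mem a ha g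
    have hbD : b ∉ D := by
      rintro ⟨x, hx, e⟩
      exact haB ((MulAut.conj g).injective e ▸ hx)
    have hDn : ¬ ∀ x ∈ D, S.ρ x ∈ D := fun h => hgB (huniq g h)
    obtain ⟨d01, d02, -⟩ := S.orbit_ne hDn
    have hmem : ∀ f : MulAut G, (∀ x ∈ B, f x ∈ B) → D.map f.toMonoidHom ≠ D → b ∈ D.map f.toMonoidHom := by
      intro f hf hne
      have hDf : D.map f.toMonoidHom = B.map (MulAut.conj (f g)).toMonoidHom := by
        conv_rhs => rw [← map_eq_of_le f hf]
        rw [hD, Subgroup.map_map, Subgroup.map_map]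
        congr 1
        ext y
        change f (g * y * g⁻¹) = f g * f y * (f g)⁻¹
        rw [map_mul, map_mul, map_inv]
      have hne' : B.map (MulAut.conj (g⁻¹ * f g)).toMonoidHom ≠ B := by
        intro e
        apply hne
        rw [hDf, hD]
        conv_rhs => rw [← e]
        rw [Subgroup.map_map]
        congr 1
        ext y
        simp [mul_assoc]
      obtain ⟨x, hx, e⟩ := hcont _ hne' a ha haρ
      rw [hDf]
      refine ⟨x, hx, ?_⟩
      replace e : g⁻¹ * f g * x * (g⁻¹ * f g)⁻¹ = a := e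
      change f g * x * (f g)⁻¹ = b
      rw [hb, ← e]; group
    have hb1 : b ∈ D.map S.ρ.toMonoidHom := hmem S.ρ hBr (Ne.symm d01)
    have hb2 : b ∈ (D.map S.ρ.toMonoidHom).map S.ρ.toMonoidHom := by
      rw [Subgroup.map_map]
      refine hmem (S.ρ.trans S.ρ) (fun x hx => hBr _ (hBr x hx)) ?_
      rw [show (S.ρ.trans S.ρ).toMonoidHom = S.ρ.toMonoidHom.comp S.ρ.toMonoidHom from rfl, ← Subgroup.map_map]
      exact Ne.symm d02
    obtain ⟨x, hx, e⟩ := hb1
    obtain ⟨_, ⟨y, hy, rfl⟩, e'⟩ := hb2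
    have h2 : S.ρ (S.ρ b) ∈ D := by rw [← e]; change S.ρ (S.ρ (S.ρ x)) ∈ D; rwa [S.r3]
    have h1 : S.ρ b ∈ D := by rw [← e']; change S.ρ (S.ρ (S.ρ y)) ∈ D; rwa [S.r3]
    obtain ⟨hnA, hnρ⟩ := S.n_fixed hA F hbA
    have h3 := mul_mem (hcont g hgB _ hnA hnρ) (inv_mem (mul_mem h1 h2))
    apply hbD
    rwa [mul_assoc b, mul_inv_cancel_right] at h3
  have htop : Fix S.φ B = ⊤ := by
    refine (S.irr _ ?_ ?_ ?_).resolve_left fun e => hv1 (Subgroup.mem_bot.1 (e ▸ hv))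
    · intro g u hu x hx
      have h := hu _ (hBn.conj_mem x hx g⁻¹)
      rw [inv_inv] at h
      calc S.φ x (S.φ g u) = S.φ g (S.φ (g⁻¹ * x * g) u) := by rw [← φ_mul, ← φ_mul]; congr 2; group
        _ = S.φ g u := by rw [h]
    · intro u hu x hx
      have h := congrArg S.rv (hu _ (hBr _ (hBr _ hx)))
      rwa [S.compat_r, S.r3] at h
    · intro u hu x hx
      have h := congrArg S.tv (hu _ (hBt _ hx))
      rwa [S.compat_t, S.t2] at h
  intro x hx
  have hone : ∀ y ∈ B, y = 1 := fun y hy => eq_one_of_forall S.inj fun u =>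
    (htop ▸ Subgroup.mem_top u : u ∈ Fix S.φ B) y hy
  exact mul_inv_eq_one.1 (hone _ (hid x hx))

/-- An abelian invariant normal subgroup is fixed by `ρ`, central and fixed-point-free. -/
theorem abelian_normal {N : Subgroup G} (hN : S.Inv N) (hNc : ∀ a ∈ N, ∀ b ∈ N, a * b = b * a)
    {c₀ : G} (hc₀ : S.ρ c₀ = c₀) (hc₀1 : c₀ ≠ 1) {q : ℕ} [Fact q.Prime] (hVq : ∀ v : V, v ^ q = 1)
    [Nontrivial V] :
    (∀ z ∈ N, S.ρ z = z) ∧ (∀ z ∈ N, ∀ g : G, g * z = z * g) ∧
      ∀ z ∈ N, z ≠ 1 → ∀ v, S.φ z v = v → v = 1 := by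
  classical
  have hprime : ∀ z ∈ N, z ≠ 1 → ∃ k : ℕ, z ^ k ≠ 1 ∧ S.ρ (z ^ k) = z ^ k := by
    intro z hz hz1
    obtain ⟨r, hr, hrd⟩ := Nat.exists_prime_and_dvd (fun e => hz1 (orderOf_eq_one_iff.1 e))
    let A : Subgroup G :=
      { carrier := {x | x ∈ N ∧ x ^ r = 1}
        one_mem' := ⟨one_mem N, one_pow r⟩
        mul_mem' := fun {a b} ha hb => ⟨mul_mem ha.1 hb.1, by
          rw [Commute.mul_pow (hNc a ha.1 b hb.1), ha.2, hb.2, mul_one]⟩
        inv_mem' := fun {a} ha => ⟨inv_mem ha.1, by rw [inv_pow, ha.2, inv_one]⟩ }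
    have hA : S.Inv A := ⟨⟨fun a ha g => ⟨hN.normal.conj_mem a ha.1 g, by
        rw [conj_pow, ha.2, mul_one, mul_inv_cancel]⟩⟩,
      fun a ha => ⟨hN.hr a ha.1, by rw [← map_pow, ha.2, map_one]⟩,
      fun a ha => ⟨hN.ht a ha.1, by rw [← map_pow, ha.2, map_one]⟩⟩
    have hk : z ^ (orderOf z / r) ∈ A := ⟨pow_mem hz _, by
      rw [← pow_mul, Nat.div_mul_cancel hrd, pow_orderOf_eq_one]⟩
    have hne : z ^ (orderOf z / r) ≠ 1 := by
      refine pow_ne_one_of_lt_orderOf (Nat.div_pos (Nat.le_of_dvd (orderOf_pos z) hrd) hr.pos).ne' ?_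
      exact Nat.div_lt_self (orderOf_pos z) hr.one_lt
    have hA1 : A ≠ ⊥ := fun e => hne (Subgroup.mem_bot.1 (e ▸ hk))
    exact ⟨_, hne, S.frame_fixed hA (S.frame hA hr (fun a ha => ha.2) (fun a ha b hb => hNc a ha.1 b hb.1) hA1 hVq)
      hc₀ hc₀1 _ hk⟩
  have hfixed : ∀ z ∈ N, S.ρ z = z := by
    intro z hz
    rw [← mul_inv_eq_one]
    by_contra hne
    set y := S.ρ z * z⁻¹ with hy
    have hyN : y ∈ N := mul_mem (hN.hr z hz) (inv_mem hz)
    obtain ⟨k, hk, hkρ⟩ := hprime y hyN hne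
    apply hk
    refine eq_one_of_cube S.copG ?_
    have hn : y * S.ρ y * S.ρ (S.ρ y) = 1 := by
      rw [hy, map_mul, map_mul, map_inv, map_inv, S.r3]
      rw [hNc _ (mul_mem (hN.hr z hz) (inv_mem hz)) _ (mul_mem (hN.hr _ (hN.hr z hz)) (inv_mem (hN.hr z hz)))]
      group
    have h2 := congrArg (· ^ k) hn
    simp only [one_pow] at h2
    rw [Commute.mul_pow (hNc _ (mul_mem hyN (hN.hr y hyN)) _ (hN.hr _ (hN.hr y hyN))),
      Commute.mul_pow (hNc _ hyN _ (hN.hr y hyN)), ← map_pow, ← map_pow, ← map_pow, hkρ, hkρ] at h2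
    rw [pow_succ, pow_two]
    exact h2
  have hcentral : ∀ z ∈ N, ∀ g : G, g * z = z * g := by
    set M := Subgroup.centralizer (N : Set G) with hM
    haveI := hN.normal
    suffices h : ∀ g : G, g ∈ M from fun z hz g => (Subgroup.mem_centralizer_iff.1 (h g) z hz).symm
    have hact : ∀ (x y : G), (∀ z ∈ N, x * z * x⁻¹ = y * z * y⁻¹) → x⁻¹ * y ∈ M := by
      intro x y h
      rw [hM, Subgroup.mem_centralizer_iff]
      intro z hz
      calc z * (x⁻¹ * y) = x⁻¹ * (x * z * x⁻¹) * y := by group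
        _ = x⁻¹ * y * z := by rw [h z hz]; group
    intro g
    have hr' : ∀ x, x⁻¹ * S.ρ x ∈ M := fun x => hact x _ fun z hz => by
      have h := hfixed _ (hN.normal.conj_mem z hz x)
      rw [map_mul, map_mul, map_inv, hfixed z hz] at h
      exact h.symm
    have ht' : ∀ x, x⁻¹ * S.t x ∈ M := fun x => hact x _ fun z hz => by
      have h := S.t_eq_inv (hfixed _ (hN.normal.conj_mem z hz x))
      rw [map_mul, map_mul, map_inv, S.t_eq_inv (hfixed z hz)] at h
      have h2 := congrArg (·⁻¹) h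
      simp only [mul_inv_rev, inv_inv, mul_assoc] at h2
      rw [mul_assoc, mul_assoc]
      exact h2.symm
    let α := {x : G // g⁻¹ * x ∈ M}
    haveI : Fintype α := Fintype.ofFinite _
    haveI : Fact (Nat.Prime 3) := ⟨Nat.prime_three⟩
    have hcoset : ∀ x : G, g⁻¹ * x ∈ M → g⁻¹ * S.ρ x ∈ M := fun x hx => by
      have := mul_mem hx (hr' x)
      rwa [mul_assoc, mul_inv_cancel_left] at this
    let σ : Equiv.Perm α :=
      ⟨fun x => ⟨S.ρ x.1, hcoset _ x.2⟩, fun x => ⟨S.ρ (S.ρ x.1), hcoset _ (hcoset _ x.2)⟩,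
        fun x => Subtype.ext (S.r3 x.1), fun x => Subtype.ext (S.r3 x.1)⟩
    have hcard : ¬ 3 ∣ Fintype.card α := by
      rw [← Nat.card_eq_fintype_card, Nat.card_congr (show α ≃ M from
        ⟨fun x => ⟨g⁻¹ * x.1, x.2⟩, fun l => ⟨g * l.1, by rw [inv_mul_cancel_left]; exact l.2⟩,
          fun x => Subtype.ext (mul_inv_cancel_left g x.1), fun l => Subtype.ext (inv_mul_cancel_left g l.1)⟩)]
      intro hd
      have := Nat.dvd_gcd (hd.trans (Subgroup.card_subgroup_dvd_card M)) (show 3 ∣ 6 by norm_num)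
      rw [S.copG.gcd_eq_one] at this
      norm_num at this
    obtain ⟨⟨c, hcM⟩, hc⟩ := Equiv.Perm.exists_fixed_point_of_prime (p := 3) (n := 1) hcard (σ := σ)
      (Equiv.ext fun x => Subtype.ext (S.r3 x.1))
    replace hc : S.ρ c = c := congrArg Subtype.val hc
    have h1 := ht' c
    rw [S.t_eq_inv hc] at h1
    have hcM' : c ∈ M := by
      refine mem_of_sq S.copG ?_
      have := inv_mem h1
      rwa [mul_inv_rev, inv_inv, ← pow_two] at this
    have := mul_mem hcM' (inv_mem hcM)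
    rwa [mul_inv_rev, inv_inv, mul_inv_cancel_left] at this
  refine ⟨hfixed, hcentral, fun z hz hz1 v hv => ?_⟩
  have hFix : Fix S.φ (Subgroup.zpowers z) = ⊥ := by
    refine (S.irr _ ?_ ?_ ?_).resolve_right fun e => hz1 (eq_one_of_forall S.inj fun u =>
      (e ▸ Subgroup.mem_top u : u ∈ Fix S.φ _) z (Subgroup.mem_zpowers z))
    · intro g u hu b hb
      rw [← φ_mul, ← hcentral b (Subgroup.zpowers_le.2 hz hb) g, φ_mul, hu b hb]
    · intro u hu b hb
      have h := congrArg S.rv (hu b hb)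
      rwa [S.compat_r, hfixed b (Subgroup.zpowers_le.2 hz hb)] at h
    · intro u hu b hb
      have h := congrArg S.tv (hu b⁻¹ (inv_mem hb))
      rwa [S.compat_t, map_inv S.t, S.t_eq_inv (hfixed b (Subgroup.zpowers_le.2 hz hb)), inv_inv] at h
  have : v ∈ Fix S.φ (Subgroup.zpowers z) := by
    let K : Subgroup G :=
      { carrier := {y | S.φ y v = v}
        one_mem' := φ_one v
        mul_mem' := fun {a b} (ha : S.φ a v = v) (hb : S.φ b v = v) => by
          show S.φ (a * b) v = v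
          rw [φ_mul, hb, ha]
        inv_mem' := fun {a} (ha : S.φ a v = v) => inv_fix ha }
    exact fun b hb => (Subgroup.zpowers_le.2 (show z ∈ K from hv)) hb
  rwa [hFix, Subgroup.mem_bot] at this

/-- The identity relating the conjugates of `ρ`. -/
theorem conj_identity (hV0 : ∀ v, S.rv v = v → v = 1) (g : G) (v : V) :
    S.φ (S.ρ (g * (S.ρ g)⁻¹)) v * S.φ (S.ρ (g * (S.ρ g)⁻¹))⁻¹ v =
      S.φ (g * (S.ρ g)⁻¹) v * S.φ (g * (S.ρ g)⁻¹)⁻¹ v := by
  have hE : ∀ (x : G) (w : V), S.φ (S.ρ x) (S.rv w) / S.φ (S.ρ (S.ρ x)) (S.rv w) =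
      S.φ (S.ρ (S.ρ x)) w / S.φ x w := by
    intro x w
    have h1 : S.rv (S.rv w) = (w * S.rv w)⁻¹ :=
      eq_inv_of_mul_eq_one_right (hV0 _ (S.orbit_fixed w))
    have h2 := hV0 _ (S.orbit_fixed (S.φ x w))
    rw [S.compat_r, S.compat_r, h1, map_inv, map_mul, mul_inv_eq_one] at h2
    rw [div_eq_div_iff_mul_eq_mul, mul_comm, h2]
  have h4 := hE g (S.φ (S.ρ g⁻¹) v)
  rw [S.compat_r, ← φ_mul, ← φ_mul, ← φ_mul, ← φ_mul] at h4
  have h5 := congrArg (S.φ (S.ρ g)) (hE g⁻¹ v)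
  rw [map_div, map_div, ← φ_mul, ← φ_mul, ← φ_mul, ← φ_mul] at h5
  have h6 := hE (g * g⁻¹) v
  rw [mul_inv_cancel, map_one S.ρ, map_one S.ρ, φ_one, φ_one, div_self'] at h6
  have h7 := congrArg₂ (· * ·) h5 h4
  simp only [div_mul_div_cancel] at h7
  rw [← map_mul S.ρ g g⁻¹, mul_inv_cancel, map_one, φ_one, ← map_mul S.ρ (S.ρ g) (S.ρ g⁻¹),
    ← map_mul S.ρ g g⁻¹, mul_inv_cancel, map_one, map_one, φ_one, div_self'] at h7
  have e1 : (S.ρ (g * (S.ρ g)⁻¹))⁻¹ = S.ρ (S.ρ g) * S.ρ g⁻¹ := by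
    rw [map_mul, mul_inv_rev, map_inv S.ρ (S.ρ g), inv_inv, map_inv]
  have e2 : S.ρ (g * (S.ρ g)⁻¹) = S.ρ g * S.ρ (S.ρ g⁻¹) := by
    rw [map_mul, map_inv S.ρ g]
  have e3 : (g * (S.ρ g)⁻¹)⁻¹ = S.ρ g * g⁻¹ := by rw [mul_inv_rev, inv_inv]
  rw [e1, e2, e3, ← map_inv S.ρ g]
  rw [div_mul_div_comm, eq_comm, div_eq_one] at h7
  rw [h7, mul_comm]

include S in
/-- The acting group is abelian. -/
theorem abelian (hsol : Group.IsSolvable G) {q : ℕ} [Fact q.Prime] (hVq : ∀ v : V, v ^ q = 1) [Nontrivial V] :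
    ∀ g h : G, g * h = h * g := by
  classical
  by_cases hC : ∀ c, S.ρ c = c → c = 1
  · exact S.comm_of_fpf hC hVq
  push Not at hC
  obtain ⟨c₀, hc₀, hc₀1⟩ := hC
  obtain ⟨n, hn⟩ := (Group.isSolvable_def G).1 hsol
  have hex : ∃ m, derivedSeries G m = ⊥ := ⟨n, hn⟩
  have hInv : ∀ k, S.Inv (derivedSeries G k) := fun k => by
    haveI := derivedSeries_characteristic G k
    refine ⟨inferInstance, fun a ha => ?_, fun a ha => ?_⟩
    · exact (Subgroup.characteristic_iff_map_le.1 (derivedSeries_characteristic G k) S.ρ) ⟨a, ha, rfl⟩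
    · exact (Subgroup.characteristic_iff_map_le.1 (derivedSeries_characteristic G k) S.t) ⟨a, ha, rfl⟩
  rcases hm : Nat.find hex with _ | m
  · intro g h
    have h0 := Nat.find_spec hex
    rw [hm, derivedSeries_zero] at h0
    have h1 : ∀ x : G, x = 1 := fun x => by
      have := Subgroup.mem_top x
      rwa [h0, Subgroup.mem_bot] at this
    rw [h1 g, h1 h]
  have hlast := Nat.find_spec hex
  rw [hm, derivedSeries_succ, Subgroup.commutator_eq_bot_iff_le_centralizer] at hlast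
  have hDc : ∀ x ∈ derivedSeries G m, ∀ y ∈ derivedSeries G m, x * y = y * x := fun x hx y hy =>
    (Subgroup.mem_centralizer_iff.1 (hlast hx) y hy).symm
  obtain ⟨hDf, hDz, hDfix⟩ := S.abelian_normal (hInv m) hDc hc₀ hc₀1 hVq
  rcases m with _ | k
  · intro g h
    exact hDc g (by rw [derivedSeries_zero]; exact Subgroup.mem_top g) h (by rw [derivedSeries_zero]; exact Subgroup.mem_top h)
  exfalso
  have hD1 : derivedSeries G (k + 1) ≠ ⊥ := Nat.find_min hex (by omega)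
  obtain ⟨d, hd, hd1⟩ : ∃ d ∈ derivedSeries G (k + 1), d ≠ 1 := by
    obtain ⟨d, hd⟩ := Subgroup.ne_bot_iff_exists_ne_one.1 hD1
    exact ⟨d, d.2, fun e => hd (Subtype.ext e)⟩
  have hV0 : ∀ v, S.rv v = v → v = 1 := fun v hv => hDfix d hd hd1 v (S.C_fix (hDf d hd) hv)
  set P := derivedSeries G k with hP
  have hPD : ∀ x ∈ P, ∀ y ∈ P, ⁅x, y⁆ ∈ derivedSeries G (k + 1) := fun x hx y hy => by
    rw [derivedSeries_succ]; exact Subgroup.commutator_mem_commutator hx hy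
  -- the centre of `P`
  set Zp := P ⊓ Subgroup.centralizer (P : Set G) with hZp
  have hZi : S.Inv Zp := by
    haveI := (hInv k).normal
    have hf : ∀ f : MulAut G, (∀ x ∈ P, f x ∈ P) → ∀ a ∈ Zp, f a ∈ Zp := by
      intro f hfP a ha
      refine Subgroup.mem_inf.2 ⟨hfP a ha.1, Subgroup.mem_centralizer_iff.2 fun y hy => ?_⟩
      obtain ⟨y', hy', rfl⟩ : y ∈ P.map f.toMonoidHom := (map_eq_of_le (B := P) f hfP).symm ▸ hy
      change f y' * f a = f a * f y'
      rw [← map_mul, ← map_mul, Subgroup.mem_centralizer_iff.1 ha.2 y' hy']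
    exact ⟨inferInstance, hf S.ρ (hInv k).hr, hf S.t (hInv k).ht⟩
  have hZc : ∀ a ∈ Zp, ∀ b ∈ Zp, a * b = b * a := fun a ha b hb =>
    Subgroup.mem_centralizer_iff.1 hb.2 a ha.1
  obtain ⟨hZf, hZz, -⟩ := S.abelian_normal hZi hZc hc₀ hc₀1 hVq
  suffices hρP : ∀ g ∈ P, S.ρ g = g by
    apply hD1
    rw [derivedSeries_succ, Subgroup.commutator_eq_bot_iff_le_centralizer]
    exact fun x hx => Subgroup.mem_centralizer_iff.2 fun y hy => S.C_comm (hρP y hy) (hρP x hx)
  intro g hg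
  set y := g * (S.ρ g)⁻¹ with hy
  set w := S.ρ y with hw
  have hyP : y ∈ P := mul_mem hg (inv_mem ((hInv k).hr g hg))
  have hwP : w ∈ P := (hInv k).hr y hyP
  have hI : ∀ v, S.φ w v * S.φ w⁻¹ v = S.φ y v * S.φ y⁻¹ v := fun v => S.conj_identity hV0 g v
  have hzfix : ∀ z ∈ derivedSeries G (k + 1), z ≠ 1 → ∀ v, S.φ z v = v → v = 1 := hDfix
  have hI2 : ∀ v, S.φ (w * y) v * S.φ (w * y⁻¹) v = S.φ (w * w) v * v := by
    intro v
    have := congrArg (S.φ w) (hI v)
    rw [map_mul, map_mul, ← φ_mul, ← φ_mul, ← φ_mul, ← φ_mul, mul_inv_cancel, φ_one] at this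
    exact this.symm
  have hyw : y * w = w * y := by
    by_contra hne
    set z := ⁅y, w⁆ with hz
    have hzD := hPD y hyP w hwP
    have hz1 : z ≠ 1 := fun e => hne (commutatorElement_eq_one_iff_mul_comm.1 e)
    have hzc := hDz z hzD
    have e1 : y * w = z * (w * y) := by rw [hz, commutatorElement_def]; group
    have e2 : y⁻¹ * w = z⁻¹ * (w * y⁻¹) := by
      have : y * (z⁻¹ * (w * y⁻¹)) = w := by
        rw [← mul_assoc, ← inv_inv y, ← mul_inv_rev, ← hzc y⁻¹, mul_inv_rev, inv_inv, mul_assoc,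
          ← mul_assoc y w, e1]
        group
      rw [inv_mul_eq_iff_eq_mul, this]
    have hee : ∀ v, S.φ (w * y) v = S.φ (z⁻¹ * (w * y⁻¹)) v := by
      intro v
      have h1 := hI (S.φ w v)
      rw [← φ_mul, ← φ_mul, ← φ_mul, ← φ_mul, inv_mul_cancel, φ_one, e1, e2, ← hI2 v, φ_mul z, φ_mul z⁻¹] at h1
      rw [φ_mul z⁻¹, ← div_eq_one]
      refine hzfix z hzD hz1 _ ?_
      rw [map_div, ← φ_mul z z⁻¹, mul_inv_cancel, φ_one, div_eq_div_iff_mul_eq_mul, h1]
    have h1 : w * y = z⁻¹ * (w * y⁻¹) := S.inj (MulEquiv.ext hee)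
    have h2 : w * (y * y) = w * z⁻¹ := by
      rw [← mul_assoc, h1, mul_assoc, mul_assoc, inv_mul_cancel, mul_one]
      exact (Commute.inv_right (show Commute w z from hzc w)).eq.symm
    apply hne
    have hy2 : y ^ 2 ∈ Subgroup.centralizer ({w} : Set G) := by
      rw [pow_two, mul_left_cancel h2, Subgroup.mem_centralizer_singleton_iff]
      exact (Commute.inv_right (show Commute w z from hzc w)).eq.symm
    exact Subgroup.mem_centralizer_singleton_iff.1 (mem_of_sq S.copG hy2)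
  set x := w * y⁻¹ with hx
  set x' := w * y with hx'
  have hxP : x ∈ P := mul_mem hwP (inv_mem hyP)
  have hx'P : x' ∈ P := mul_mem hwP hyP
  have hxx' : x * x' = x' * x := by
    have cwy : Commute w y := hyw.symm
    exact (((Commute.refl w).mul_right cwy).mul_left (cwy.symm.mul_right (Commute.refl y)).inv_left).eq
  have hu : ∀ v, S.φ x (S.φ x' v / v) = S.φ x' v / v := by
    intro v
    have e : x * x' = w * w := by
      have h1 : y⁻¹ * w = w * y⁻¹ := (show Commute y w from hyw).inv_left.eq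
      rw [hx, hx', mul_assoc, ← mul_assoc y⁻¹, h1, mul_assoc, inv_mul_cancel, mul_one]
    rw [map_div, ← φ_mul, e, div_eq_div_iff_mul_eq_mul, hx', hx, hI2 v]
  have hu' : ∀ v, S.φ x' (S.φ x v / v) = S.φ x v / v := by
    intro v
    have h1 := hu v
    rw [map_div, div_eq_div_iff_mul_eq_mul, ← φ_mul, hxx', φ_mul] at h1
    rw [map_div, div_eq_div_iff_mul_eq_mul, h1, mul_comm]
  have hincl : ∀ a ∈ P, ∀ b ∈ P, (∀ v, S.φ a (S.φ b v / v) = S.φ b v / v) → a ≠ 1 → ∀ h ∈ P, a * h = h * a →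
      b * h = h * b := by
    intro a haP b hbP hab ha1 h hhP hah
    by_contra hne
    set z := ⁅b, h⁆ with hz
    have hzD := hPD b hbP h hhP
    have hz1 : z ≠ 1 := fun e => hne (commutatorElement_eq_one_iff_mul_comm.1 e)
    have e1 : b * h = z * (h * b) := by rw [hz, commutatorElement_def]; group
    refine ha1 (eq_one_of_forall S.inj ?_)
    let f : V → V := fun m => S.φ z m / m
    have hf : Function.Injective f := by
      intro m m' e
      have := div_eq_div_iff_div_eq_div.1 e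
      rw [← map_div] at this
      exact div_eq_one.1 (hzfix z hzD hz1 _ this)
    intro u
    obtain ⟨m, rfl⟩ := (Finite.injective_iff_surjective.1 hf) u
    obtain ⟨v, rfl⟩ := (S.φ (h * b)).surjective m
    have k1 := hab (S.φ h v)
    have k2 : S.φ a (S.φ (h * b) v / S.φ h v) = S.φ (h * b) v / S.φ h v := by
      have := congrArg (S.φ h) (hab v)
      rw [← φ_mul, ← hah, φ_mul, map_div (S.φ h), ← φ_mul h b] at this
      exact this
    rw [← φ_mul, e1, φ_mul z] at k1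
    change S.φ a (S.φ z (S.φ (h * b) v) / S.φ (h * b) v) = _
    have e : S.φ z (S.φ (h * b) v) / S.φ (h * b) v =
        (S.φ z (S.φ (h * b) v) / S.φ h v) / (S.φ (h * b) v / S.φ h v) := (div_div_div_cancel_right _ _ _).symm
    rw [e, map_div, k1, k2]
    exact e.symm
  have hxZ : x ∈ Zp := by
    by_contra hxn
    obtain ⟨h, hhP, hne⟩ : ∃ h ∈ P, h * x ≠ x * h := by
      by_contra hall
      push Not at hall
      exact hxn (Subgroup.mem_inf.2 ⟨hxP, Subgroup.mem_centralizer_iff.2 hall⟩)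
    have hxne : x ≠ 1 := fun e => hne (by rw [e, mul_one, one_mul])
    have hx'1 : x' = 1 := by
      by_contra hx'ne
      set ζ := ⁅h, x⁆ with hζ
      have hζD := hPD h hhP x hxP
      have hζ1 : ζ ≠ 1 := fun e => hne (commutatorElement_eq_one_iff_mul_comm.1 e)
      set z := ⁅x', h⁆ with hz
      have hzD := hPD x' hx'P h hhP
      have hz1 : z ≠ 1 := by
        intro e
        have := hincl x' hx'P x hxP hu' hx'ne h hhP (commutatorElement_eq_one_iff_mul_comm.1 e)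
        exact hne this.symm
      have hcζ : ∀ b : G, ζ * b = b * ζ := fun b => (hDz ζ hζD b).symm
      have hcz : ∀ b : G, z * b = b * z := fun b => (hDz z hzD b).symm
      have e1 : h * x = ζ * x * h := by rw [hζ, commutatorElement_def]; group
      have e2 : x' * h = z * (h * x') := by rw [hz, commutatorElement_def]; group
      -- vectors fixed by `ζ^i x` are fixed by `x'`
      have hmove : ∀ ξ : G, ξ ∈ derivedSeries G (k + 1) → ξ ≠ 1 → ∀ v, S.φ (ξ * x) v = v → S.φ x' v = v := by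
        intro ξ hξ hξ1 v hv
        rw [← div_eq_one]
        refine hzfix ξ hξ hξ1 _ ?_
        have k1 : S.φ (ξ * x) (S.φ x' v / v) = S.φ x' v / v := by
          rw [map_div, ← φ_mul, hv, mul_assoc, hxx', ← mul_assoc, ← hDz ξ hξ x', mul_assoc, φ_mul, hv]
        rwa [φ_mul, hu v] at k1
      have hFx : ∀ v, S.φ x v = v → v = 1 := by
        intro v hv
        have h1 : S.φ (ζ * x) (S.φ h v) = S.φ h v := by rw [← φ_mul, ← e1, φ_mul, hv]
        have h2 : S.φ (ζ * ζ * x) (S.φ h (S.φ h v)) = S.φ h (S.φ h v) := by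
          have e : ζ * ζ * x * (h * h) = h * h * x := by
            calc ζ * ζ * x * (h * h) = ζ * (ζ * x * h) * h := by group
              _ = ζ * (h * x) * h := by rw [e1]
              _ = h * (ζ * x * h) := by rw [← mul_assoc ζ h x, hcζ h]; group
              _ = h * h * x := by rw [← e1, mul_assoc]
          rw [← φ_mul h h, ← φ_mul, e, φ_mul, hv]
        have hζ2 : ζ * ζ ≠ 1 := fun e => hζ1 (eq_one_of_sq S.copG (by rw [pow_two]; exact e))
        have k1 := hmove ζ hζD hζ1 _ h1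
        have k2 := hmove (ζ * ζ) (mul_mem hζD hζD) hζ2 _ h2
        rw [← φ_mul, e2, ← mul_assoc, hcz h, mul_assoc, φ_mul] at k1
        have k1' := (S.φ h).injective k1
        have e3 : x' * (h * h) = h * h * (z * (z * x')) := by
          calc x' * (h * h) = z * (h * x') * h := by rw [← mul_assoc, e2]
            _ = z * h * (z * (h * x')) := by rw [mul_assoc z, mul_assoc h, e2, ← mul_assoc z h]
            _ = h * h * (z * (z * x')) := by
              simp only [← mul_assoc]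
              rw [hcz h, mul_assoc (h * z) z h, hcz h, ← mul_assoc (h * z) h z, mul_assoc h z h, hcz h,
                ← mul_assoc h h z]
        rw [← φ_mul h h, ← φ_mul, e3, φ_mul] at k2
        have k2' := (S.φ (h * h)).injective k2
        rw [φ_mul z, k1'] at k2'
        exact hzfix z hzD hz1 v k2'
      refine hx'ne (eq_one_of_forall S.inj fun v => ?_)
      exact div_eq_one.1 (hFx _ (hu v))
    -- so `w = y⁻¹`
    have hwy : S.ρ y = y⁻¹ := eq_inv_of_mul_eq_one_left hx'1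
    have h3 := S.r3 y
    rw [hwy, map_inv, hwy, inv_inv, hwy] at h3
    have hy1 : y = 1 := by
      refine eq_one_of_sq S.copG ?_
      rw [pow_two]
      nth_rewrite 1 [← h3]
      exact inv_mul_cancel y
    apply hxne
    rw [hx, hw, hy1, map_one, inv_one, mul_one]
  -- `ρ y = x * y` with `x` fixed and central
  have hρy : S.ρ y = x * y := by rw [hx, inv_mul_cancel_right]
  have hxc := hZz x hxZ
  have hρρy : S.ρ (S.ρ y) = x * (x * y) := by rw [hρy, map_mul, hZf x hxZ, hρy]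
  have htel : y * S.ρ y * S.ρ (S.ρ y) = 1 := by
    rw [hy, map_mul, map_mul, map_inv, map_inv, S.r3]; group
  have hy3 : y ^ 3 = (x ^ 3)⁻¹ := by
    rw [hρρy, hρy] at htel
    refine eq_inv_of_mul_eq_one_left ?_
    have c : Commute y x := hxc y
    have e : x * (x * y) = y * x * x := by rw [c.eq, mul_assoc x y x, c.eq]
    calc y ^ 3 * x ^ 3 = y * (y ^ 2 * x ^ 2) * x := by group
      _ = y * ((y * x) * (y * x)) * x := by rw [← c.mul_pow, pow_two]
      _ = y * (y * x) * (y * x * x) := by group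
      _ = 1 := by rw [← e, c.eq]; exact htel
  have hyZ : y ∈ Zp := mem_of_cube S.copG (by rw [hy3]; exact inv_mem (pow_mem hxZ 3))
  have hy1 : y = 1 := by
    have := hZf y hyZ
    rw [this, this] at htel
    exact eq_one_of_cube S.copG (by rw [pow_succ, pow_two]; exact htel)
  exact (mul_inv_eq_one.1 hy1).symm

end Setup

end CfsgLib.FpfS3
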